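import Mathlib

/-!
# Generators of a group `4 ∘ 2^{1+4}`

A group of order `64` with cyclic centre `⟨ι⟩` of order four, all of whose squares and
commutators lie in `⟨ι²⟩`, is generated by `ι` and two commuting "hyperbolic pairs" of involutions.
-/

set_option autoImplicit false

namespace Cfsg.Agent.Lib.Pauli4.Group

variable {E : Type*} [Group E]

theorem mem_cent {t x : E} : x ∈ Subgroup.centralizer {t} ↔ x * t = t * x := by
  rw [Subgroup.mem_centralizer_iff]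
  simp [eq_comm]

/-- A partner of `t` in `H` cuts the order in half. -/
theorem halve {z : E} (hzc : ∀ w, z * w = w * z) (hz1 : z ≠ 1) (hzz : z * z = 1)
    (H : Subgroup E) {a t : E} (hcomm : ∀ x ∈ H, x * t = t * x ∨ x * t = z * (t * x))
    (ha : a ∈ H) (hat : a * t = z * (t * a)) :
    Nat.card ↥(H ⊓ Subgroup.centralizer {t}) * 2 = Nat.card H := by
  let K : Subgroup H := (H ⊓ Subgroup.centralizer {t}).subgroupOf H
  have hK : K.index = 2 := by
    rw [Subgroup.index_eq_two_iff]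
    refine ⟨⟨a, ha⟩, ?_⟩
    rintro ⟨b, hb⟩
    have hmem : ∀ c : H, c ∈ K ↔ (c : E) * t = t * c := by
      intro c
      rw [Subgroup.mem_subgroupOf, Subgroup.mem_inf, mem_cent]
      exact ⟨fun h => h.2, fun h => ⟨c.2, h⟩⟩
    rw [hmem, hmem]
    have h1 : b * a * t = z * (b * t * a) := by
      calc b * a * t = b * (a * t) := by group
        _ = b * (z * (t * a)) := by rw [hat]
        _ = (b * z) * (t * a) := by group
        _ = (z * b) * (t * a) := by rw [hzc]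
        _ = z * (b * t * a) := by group
    change Xor (b * a * t = t * (b * a)) (b * t = t * b)
    rcases hcomm b hb with h | h
    · right
      refine ⟨h, ?_⟩
      rw [h1, h]
      intro h2
      apply hz1
      have h3 : z * (t * b * a) = 1 * (t * (b * a)) := by rw [h2, one_mul]; 
      rw [show t * (b * a) = t * b * a by group] at h3
      exact mul_right_cancel h3
    · left
      constructor
      · rw [h1, h]
        calc z * (z * (t * b) * a) = (z * z) * (t * (b * a)) := by group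
          _ = _ := by rw [hzz, one_mul]
      · rw [h]
        intro h2
        apply hz1
        have h3 : z * (t * b) = 1 * (t * b) := by rw [h2, one_mul]
        exact mul_right_cancel h3
  have hc := Subgroup.card_mul_index K
  rw [hK] at hc
  rw [← hc]
  congr 1
  exact (Nat.card_congr (Subgroup.subgroupOfEquivOfLe (inf_le_left : H ⊓ Subgroup.centralizer {t} ≤ H)).toEquiv).symm

theorem anti_symm {z : E} (hzz : z * z = 1) {a t : E}
    (h : a * t = z * (t * a)) : t * a = z * (a * t) := by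
  rw [h, ← mul_assoc, hzz, one_mul]

theorem fix {z : E} (hzc : ∀ w, z * w = w * z) (hzz : z * z = 1)
    (hcomm : ∀ x y : E, x * y = y * x ∨ x * y = z * (y * x)) {a t : E}
    (hat : a * t = z * (t * a)) (y : E) : ∃ e, (e = 1 ∨ e = a) ∧ (y * e) * t = t * (y * e) := by
  rcases hcomm y t with h | h
  · exact ⟨1, Or.inl rfl, by simpa using h⟩
  · refine ⟨a, Or.inr rfl, ?_⟩
    calc y * a * t = y * (a * t) := by group
      _ = y * (z * (t * a)) := by rw [hat]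
      _ = (y * z) * (t * a) := by group
      _ = (z * y) * (t * a) := by rw [hzc]
      _ = z * (y * t) * a := by group
      _ = z * (z * (t * y)) * a := by rw [h]
      _ = (z * z) * (t * (y * a)) := by group
      _ = _ := by rw [hzz, one_mul]

theorem comm_mul {a b c : E} (h1 : a * c = c * a) (h2 : b * c = c * b) : (a * b) * c = c * (a * b) := by
  rw [mul_assoc, h2, ← mul_assoc, h1, mul_assoc]

/-- The generators. -/
theorem exists_basis [Finite E] (hc : Nat.card E = 64) (ι z : E) (hιc : ∀ w, ι * w = w * ι)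
    (hιz : ι * ι = z) (hzz : z * z = 1) (hz1 : z ≠ 1) (hZ : Nat.card (Subgroup.center E) = 4)
    (hsq : ∀ x : E, x * x = 1 ∨ x * x = z)
    (hcomm : ∀ x y : E, x * y = y * x ∨ x * y = z * (y * x)) :
    ∃ t₁ t₂ t₃ t₄ : E, t₁ * t₁ = 1 ∧ t₂ * t₂ = 1 ∧ t₃ * t₃ = 1 ∧ t₄ * t₄ = 1 ∧
      t₁ * t₂ = z * (t₂ * t₁) ∧ t₃ * t₄ = z * (t₄ * t₃) ∧
      t₁ * t₃ = t₃ * t₁ ∧ t₁ * t₄ = t₄ * t₁ ∧ t₂ * t₃ = t₃ * t₂ ∧ t₂ * t₄ = t₄ * t₂ ∧
      Subgroup.closure {ι, t₁, t₂, t₃, t₄} = ⊤ := by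
  have hzc : ∀ w, z * w = w * z := by
    intro w
    rw [← hιz, mul_assoc, hιc, ← mul_assoc, hιc, mul_assoc]
  have nrm : ∀ x : E, ∃ c, (∀ w, c * w = w * c) ∧ (c * x) * (c * x) = 1 := by
    intro x
    rcases hsq x with h | h
    · exact ⟨1, by simp, by simpa using h⟩
    · refine ⟨ι, hιc, ?_⟩
      calc ι * x * (ι * x) = ι * (x * ι) * x := by group
        _ = ι * (ι * x) * x := by rw [← hιc x]
        _ = (ι * ι) * (x * x) := by group
        _ = 1 := by rw [hιz, h, hzz]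
  have hccomm : ∀ {c a b : E}, (∀ w, c * w = w * c) → a * b = b * a → (c * a) * b = b * (c * a) := by
    intro c a b hc' h
    rw [mul_assoc, h, ← mul_assoc, hc' b, mul_assoc]
  have hcanti : ∀ {c a b : E}, (∀ w, c * w = w * c) → a * b = z * (b * a) → (c * a) * b = z * (b * (c * a)) := by
    intro c a b hc' h
    rw [mul_assoc, h, ← mul_assoc, hc' z, mul_assoc, ← mul_assoc b, ← hc' b, ← mul_assoc c, mul_assoc]
  -- a non-central element in every large subgroup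
  have hlarge : ∀ H : Subgroup E, 4 < Nat.card H → ∃ x ∈ H, x ∉ Subgroup.center E := by
    intro H hH
    by_contra hcon
    push Not at hcon
    have := Subgroup.card_le_of_le (H := H) (K := Subgroup.center E) hcon
    omega
  have hpartner : ∀ x, x ∉ Subgroup.center E → ∃ y, x * y = z * (y * x) := by
    intro x hx
    rw [Subgroup.mem_center_iff] at hx
    push Not at hx
    obtain ⟨y, hy⟩ := hx
    refine ⟨y, ?_⟩
    rcases hcomm x y with h | h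
    · exact absurd h.symm hy
    · exact h
  -- first pair
  obtain ⟨x₁, -, hx₁⟩ := hlarge ⊤ (by simp [hc])
  obtain ⟨c₁, hc₁, ht₁⟩ := nrm x₁
  obtain ⟨y₁, hy₁⟩ := hpartner x₁ hx₁
  obtain ⟨c₂, hc₂, ht₂⟩ := nrm y₁
  set t₁ := c₁ * x₁ with ht₁d
  set t₂ := c₂ * y₁ with ht₂d
  have h12 : t₁ * t₂ = z * (t₂ * t₁) := by
    have h1 : t₁ * y₁ = z * (y₁ * t₁) := hcanti hc₁ hy₁
    rw [ht₂d]
    calc t₁ * (c₂ * y₁) = (t₁ * c₂) * y₁ := by group
      _ = (c₂ * t₁) * y₁ := by rw [hc₂]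
      _ = c₂ * (t₁ * y₁) := by group
      _ = c₂ * (z * (y₁ * t₁)) := by rw [h1]
      _ = (c₂ * z) * (y₁ * t₁) := by group
      _ = (z * c₂) * (y₁ * t₁) := by rw [hc₂]
      _ = z * (c₂ * y₁ * t₁) := by group
  have h21 := anti_symm hzz h12
  have card1 : Nat.card ↥(Subgroup.centralizer {t₁}) * 2 = 64 := by
    have h := halve hzc hz1 hzz ⊤ (fun x _ => hcomm x t₁) (Subgroup.mem_top t₂) h21
    rwa [top_inf_eq, Nat.card_congr Subgroup.topEquiv.toEquiv, hc] at h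
  let C₁ := Subgroup.centralizer {t₁}
  let C₂ := C₁ ⊓ Subgroup.centralizer {t₂}
  have card2 : Nat.card C₂ * 2 = Nat.card C₁ :=
    halve hzc hz1 hzz C₁ (a := t₁) (fun x _ => hcomm x t₂) (mem_cent.2 rfl) h12
  have memC₂ : ∀ x, x ∈ C₂ ↔ x * t₁ = t₁ * x ∧ x * t₂ = t₂ * x := by
    intro x
    rw [Subgroup.mem_inf, mem_cent, mem_cent]
  -- second pair
  obtain ⟨x₃, hx₃C, hx₃⟩ := hlarge C₂ (by change Nat.card C₁ * 2 = 64 at card1; omega)
  obtain ⟨c₃, hc₃, ht₃⟩ := nrm x₃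
  obtain ⟨y₃, hy₃⟩ := hpartner x₃ hx₃
  obtain ⟨hx₃1, hx₃2⟩ := (memC₂ x₃).1 hx₃C
  set t₃ := c₃ * x₃ with ht₃d
  have h31 : t₃ * t₁ = t₁ * t₃ := hccomm hc₃ hx₃1
  have h32 : t₃ * t₂ = t₂ * t₃ := hccomm hc₃ hx₃2
  have h3y : t₃ * y₃ = z * (y₃ * t₃) := hcanti hc₃ hy₃
  obtain ⟨e₁, he₁, he₁c⟩ := fix hzc hzz hcomm h21 y₃
  obtain ⟨e₂, he₂, he₂c⟩ := fix hzc hzz hcomm h12 (y₃ * e₁)
  have he₁3 : e₁ * t₃ = t₃ * e₁ := by
    rcases he₁ with rfl | rfl
    · simp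
    · exact h32.symm
  have he₂3 : e₂ * t₃ = t₃ * e₂ := by
    rcases he₂ with rfl | rfl
    · simp
    · exact h31.symm
  have he₂1 : e₂ * t₁ = t₁ * e₂ := by
    rcases he₂ with rfl | rfl
    · simp
    · rfl
  set y₄ := y₃ * e₁ * e₂ with hy₄d
  have hy₄1 : y₄ * t₁ = t₁ * y₄ := comm_mul he₁c he₂1
  have hy₄2 : y₄ * t₂ = t₂ * y₄ := he₂c
  have hy₄3 : t₃ * y₄ = z * (y₄ * t₃) := by
    rw [hy₄d, ← mul_assoc t₃, ← mul_assoc t₃, h3y]
    calc z * (y₃ * t₃) * e₁ * e₂ = z * y₃ * (t₃ * e₁) * e₂ := by group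
      _ = z * y₃ * (e₁ * t₃) * e₂ := by rw [he₁3]
      _ = z * (y₃ * e₁) * (t₃ * e₂) := by group
      _ = z * (y₃ * e₁) * (e₂ * t₃) := by rw [he₂3]
      _ = _ := by group
  obtain ⟨c₄, hc₄, ht₄⟩ := nrm y₄
  set t₄ := c₄ * y₄ with ht₄d
  have h41 : t₄ * t₁ = t₁ * t₄ := hccomm hc₄ hy₄1
  have h42 : t₄ * t₂ = t₂ * t₄ := hccomm hc₄ hy₄2
  have h34 : t₃ * t₄ = z * (t₄ * t₃) := by
    rw [ht₄d]
    calc t₃ * (c₄ * y₄) = (t₃ * c₄) * y₄ := by group
      _ = (c₄ * t₃) * y₄ := by rw [hc₄]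
      _ = c₄ * (t₃ * y₄) := by group
      _ = c₄ * (z * (y₄ * t₃)) := by rw [hy₄3]
      _ = (c₄ * z) * (y₄ * t₃) := by group
      _ = (z * c₄) * (y₄ * t₃) := by rw [hc₄]
      _ = z * (c₄ * y₄ * t₃) := by group
  have h43 := anti_symm hzz h34
  let C₃ := C₂ ⊓ Subgroup.centralizer {t₃}
  let C₄ := C₃ ⊓ Subgroup.centralizer {t₄}
  have ht₄C : t₄ ∈ C₂ := (memC₂ _).2 ⟨h41, h42⟩
  have ht₃C : t₃ ∈ C₂ := (memC₂ _).2 ⟨h31, h32⟩
  have card3 : Nat.card C₃ * 2 = Nat.card C₂ :=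
    halve hzc hz1 hzz C₂ (fun x _ => hcomm x t₃) ht₄C h43
  have card4 : Nat.card C₄ * 2 = Nat.card C₃ :=
    halve hzc hz1 hzz C₃ (a := t₃) (fun x _ => hcomm x t₄) ⟨ht₃C, mem_cent.2 rfl⟩ h34
  have memC₄ : ∀ x, x ∈ C₄ ↔ x * t₁ = t₁ * x ∧ x * t₂ = t₂ * x ∧ x * t₃ = t₃ * x ∧ x * t₄ = t₄ * x := by
    intro x
    simp only [C₄, C₃, Subgroup.mem_inf, memC₂, mem_cent]
    tauto
  have hcC₄ : Subgroup.center E ≤ C₄ := by
    intro x hx
    rw [Subgroup.mem_center_iff] at hx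
    exact (memC₄ x).2 ⟨(hx _).symm, (hx _).symm, (hx _).symm, (hx _).symm⟩
  have hC₄c : C₄ = Subgroup.center E := by
    symm
    apply Subgroup.eq_of_le_of_card_ge hcC₄
    change Nat.card C₁ * 2 = 64 at card1
    omega
  have hιo : orderOf ι = 4 := by
    have h4 : ι ^ 4 = 1 := by
      have h5 : ι ^ 4 = (ι * ι) * (ι * ι) := by
        simp only [pow_succ, pow_zero, one_mul, mul_assoc]
      rw [h5, hιz, hzz]
    have h2 : ι ^ 2 ≠ 1 := by
      rw [pow_two, hιz]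
      exact hz1
    exact orderOf_eq_prime_pow (p := 2) (n := 1) (by simpa using h2) (by simpa using h4)
  have hzp : Subgroup.zpowers ι = Subgroup.center E := by
    apply Subgroup.eq_of_le_of_card_ge
    · rw [Subgroup.zpowers_le, Subgroup.mem_center_iff]
      intro g
      exact (hιc g).symm
    · rw [Nat.card_zpowers, hιo, hZ]
  set S := Subgroup.closure ({ι, t₁, t₂, t₃, t₄} : Set E) with hS
  have hSι : ι ∈ S := Subgroup.subset_closure (by simp)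
  have hS1 : t₁ ∈ S := Subgroup.subset_closure (by simp)
  have hS2 : t₂ ∈ S := Subgroup.subset_closure (by simp)
  have hS3 : t₃ ∈ S := Subgroup.subset_closure (by simp)
  have hS4 : t₄ ∈ S := Subgroup.subset_closure (by simp)
  refine ⟨t₁, t₂, t₃, t₄, ht₁, ht₂, ht₃, ht₄, h12, h34, h31.symm, h41.symm, h32.symm, h42.symm, ?_⟩
  rw [eq_top_iff]
  intro u _
  obtain ⟨f₁, hf₁, hf₁c⟩ := fix hzc hzz hcomm h21 u
  obtain ⟨f₂, hf₂, hf₂c⟩ := fix hzc hzz hcomm h12 (u * f₁)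
  obtain ⟨f₃, hf₃, hf₃c⟩ := fix hzc hzz hcomm h43 (u * f₁ * f₂)
  obtain ⟨f₄, hf₄, hf₄c⟩ := fix hzc hzz hcomm h34 (u * f₁ * f₂ * f₃)
  have hf₁S : f₁ ∈ S := by rcases hf₁ with rfl | rfl; exacts [S.one_mem, hS2]
  have hf₂S : f₂ ∈ S := by rcases hf₂ with rfl | rfl; exacts [S.one_mem, hS1]
  have hf₃S : f₃ ∈ S := by rcases hf₃ with rfl | rfl; exacts [S.one_mem, hS4]
  have hf₄S : f₄ ∈ S := by rcases hf₄ with rfl | rfl; exacts [S.one_mem, hS3]
  have hf₂1 : f₂ * t₁ = t₁ * f₂ := by rcases hf₂ with rfl | rfl; exacts [by simp, rfl]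
  have hf₃1 : f₃ * t₁ = t₁ * f₃ := by rcases hf₃ with rfl | rfl; exacts [by simp, h41]
  have hf₃2 : f₃ * t₂ = t₂ * f₃ := by rcases hf₃ with rfl | rfl; exacts [by simp, h42]
  have hf₄1 : f₄ * t₁ = t₁ * f₄ := by rcases hf₄ with rfl | rfl; exacts [by simp, h31]
  have hf₄2 : f₄ * t₂ = t₂ * f₄ := by rcases hf₄ with rfl | rfl; exacts [by simp, h32]
  have hf₄3 : f₄ * t₃ = t₃ * f₄ := by rcases hf₄ with rfl | rfl; exacts [by simp, rfl]
  have hu₂1 := comm_mul hf₁c hf₂1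
  have hu₃1 := comm_mul hu₂1 hf₃1
  have hu₃2 := comm_mul hf₂c hf₃2
  have hu₄1 := comm_mul hu₃1 hf₄1
  have hu₄2 := comm_mul hu₃2 hf₄2
  have hu₄3 := comm_mul hf₃c hf₄3
  have hmem : u * f₁ * f₂ * f₃ * f₄ ∈ C₄ := (memC₄ _).2 ⟨hu₄1, hu₄2, hu₄3, hf₄c⟩
  rw [hC₄c, ← hzp] at hmem
  have hmem2 : u * f₁ * f₂ * f₃ * f₄ ∈ S :=
    (Subgroup.zpowers_le.2 hSι) hmem
  have : u = (u * f₁ * f₂ * f₃ * f₄) * f₄⁻¹ * f₃⁻¹ * f₂⁻¹ * f₁⁻¹ := by group
  rw [this]
  exact S.mul_mem (S.mul_mem (S.mul_mem (S.mul_mem hmem2 (S.inv_mem hf₄S)) (S.inv_mem hf₃S)) (S.inv_mem hf₂S)) (S.inv_mem hf₁S)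

end Cfsg.Agent.Lib.Pauli4.Group
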