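import Mathlib
import Cfsg.Prelude.Def_GeometricClasses
import Cfsg.Agent.Lib.Asch.SC
import Cfsg.Agent.Lib.TI.SympExp4
import Cfsg.Agent.Lib.Pauli4.Group

/-!
# The configuration of an absolutely irreducible `4 ∘ 2^{1+4}` in `GL₄(F)`
-/

set_option autoImplicit false

namespace Cfsg.Agent.Lib.Pauli4.Setup

open Cfsg Cfsg.Geo Matrix Cfsg.Agent.Lib.Asch.SC
open scoped MatrixGroups

variable {F : Type*} [Field F]

/-- The generators of `R`, and the facts about `R` used below. -/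
structure Cfg (R : Subgroup (GL (Fin 4) F)) (i : F) (ι t₁ t₂ t₃ t₄ : GL (Fin 4) F) : Prop where
  hA : ActsAbsolutelyIrreducibly (matrixSet R)
  card : Nat.card R = 64
  cardZ : Nat.card (Subgroup.center R) = 4
  two : (2 : F) ≠ 0
  ii : i * i = -1
  hι : (ι : Matrix (Fin 4) (Fin 4) F) = i • 1
  ιR : ι ∈ R
  t₁R : t₁ ∈ R
  t₂R : t₂ ∈ R
  t₃R : t₃ ∈ R
  t₄R : t₄ ∈ R
  s₁ : (t₁ : Matrix (Fin 4) (Fin 4) F) * t₁ = 1
  s₂ : (t₂ : Matrix (Fin 4) (Fin 4) F) * t₂ = 1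
  s₃ : (t₃ : Matrix (Fin 4) (Fin 4) F) * t₃ = 1
  s₄ : (t₄ : Matrix (Fin 4) (Fin 4) F) * t₄ = 1
  a₁₂ : (t₁ : Matrix (Fin 4) (Fin 4) F) * t₂ = -((t₂ : Matrix (Fin 4) (Fin 4) F) * t₁)
  a₃₄ : (t₃ : Matrix (Fin 4) (Fin 4) F) * t₄ = -((t₄ : Matrix (Fin 4) (Fin 4) F) * t₃)
  c₁₃ : (t₁ : Matrix (Fin 4) (Fin 4) F) * t₃ = (t₃ : Matrix (Fin 4) (Fin 4) F) * t₁
  c₁₄ : (t₁ : Matrix (Fin 4) (Fin 4) F) * t₄ = (t₄ : Matrix (Fin 4) (Fin 4) F) * t₁
  c₂₃ : (t₂ : Matrix (Fin 4) (Fin 4) F) * t₃ = (t₃ : Matrix (Fin 4) (Fin 4) F) * t₂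
  c₂₄ : (t₂ : Matrix (Fin 4) (Fin 4) F) * t₄ = (t₄ : Matrix (Fin 4) (Fin 4) F) * t₂
  gen : Subgroup.closure {ι, t₁, t₂, t₃, t₄} = R
  sqR : ∀ x ∈ R, (x : Matrix (Fin 4) (Fin 4) F) * x = 1 ∨ (x : Matrix (Fin 4) (Fin 4) F) * x = -1
  commR : ∀ x ∈ R, ∀ y ∈ R, (x : Matrix (Fin 4) (Fin 4) F) * y = y * x ∨
    (x : Matrix (Fin 4) (Fin 4) F) * y = -((y : Matrix (Fin 4) (Fin 4) F) * x)
  pow4 : ∀ x ∈ R, x ^ 4 = 1

/-- The configuration exists. -/
theorem exists_cfg [Fintype F] {R : Subgroup (GL (Fin 4) F)} (hR : IsLinearSymplecticTypeData 2 R)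
    (hR6 : Nat.card R = 2 ^ 6) : ∃ i ι t₁ t₂ t₃ t₄, Cfg R i ι t₁ t₂ t₃ t₄ := by
  classical
  obtain ⟨p, e, hne, ⟨hp, hchar, -, -, -⟩, hcase⟩ := hR.field
  have hZ4 : Nat.card (Subgroup.center R) = 4 := by
    rcases hcase with ⟨h, -⟩ | ⟨-, -, h, -⟩ | ⟨-, -, h, -⟩
    · exact absurd h (by decide)
    · exact h
    · simp at h
  have h2F : (2 : F) ≠ 0 := by
    intro h
    have h1 : ((2 : ℕ) : F) = 0 := by exact_mod_cast h
    have h3 := (CharP.cast_eq_zero_iff F p 2).1 h1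
    have h4 := (Nat.prime_dvd_prime_iff_eq hp Nat.prime_two).1 h3
    exact hne h4.symm
  haveI hfin : Finite R := Nat.finite_of_card_ne_zero (by rw [hR6]; norm_num)
  have hR64 : Nat.card R = 64 := by rw [hR6]; norm_num
  have h4 : ∀ x : R, x ^ 4 = 1 := by
    intro x
    have h2 : Monoid.exponent R = 4 := by
      rw [hR.symplecticType.exponent_eq]
      norm_num
    have h3 := Monoid.pow_exponent_eq_one x
    rwa [h2] at h3
  have hcyc : IsCyclic (Subgroup.center R) :=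
    hR.symplecticType.cyclic_of_characteristic _ inferInstance
      ⟨⟨fun a b => Subtype.ext (Subgroup.mem_center_iff.mp a.2 b).symm⟩⟩
  obtain ⟨g, hg⟩ := hcyc.exists_ofOrder_eq_natCard
  rw [hZ4] at hg
  set ι₀ : R := g.1 with hι₀
  have hι₀c : ι₀ ∈ Subgroup.center R := g.2
  have hg4 : orderOf ι₀ = 4 := (Subgroup.orderOf_coe g).trans hg
  set z₀ : R := ι₀ * ι₀ with hz₀
  have hzc : z₀ ∈ Subgroup.center R := Subgroup.mul_mem _ hι₀c hι₀c
  have hzz : z₀ * z₀ = 1 := by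
    have := h4 ι₀
    rw [hz₀]
    rw [← this]
    simp only [pow_succ, pow_zero, one_mul, mul_assoc]
  have hz1 : z₀ ≠ 1 := by
    intro h
    have h5 : ι₀ ^ 2 = 1 := by rw [pow_two]; exact h
    have h6 := orderOf_dvd_of_pow_eq_one h5
    rw [hg4] at h6
    omega
  obtain ⟨hs1, hs2, -⟩ := Cfsg.Agent.Lib.TI.SympExp4.structure_thm hR.symplecticType.pGroup
    hR.symplecticType.cyclic_of_characteristic h4 hzc hzz hz1
  have hιZ : ((ι₀ : R) : GL (Fin 4) F) ∈ scalars (Fin 4) F := by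
    have h1 : ι₀ ∈ (scalars (Fin 4) F).subgroupOf R := by
      rw [← center_eq hR.absIrred]
      exact hι₀c
    exact Subgroup.mem_subgroupOf.1 h1
  obtain ⟨c, hc⟩ := (mem_scalars_iff _).1 hιZ
  have hzM : (((z₀ : R) : GL (Fin 4) F) : Matrix (Fin 4) (Fin 4) F) = ((c : F) * (c : F)) • 1 := by
    rw [hz₀]
    change (((ι₀ : R) : GL (Fin 4) F) * ((ι₀ : R) : GL (Fin 4) F)).1 = _
    rw [Units.val_mul, hc, Matrix.smul_mul, Matrix.mul_smul, Matrix.one_mul, smul_smul]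
  have hne1 : ∀ a : F, (a • (1 : Matrix (Fin 4) (Fin 4) F) = 1) → a = 1 := by
    intro a h
    have := congrFun (congrFun h 0) 0
    simpa using this
  have hcc : (c : F) * c = -1 := by
    have h5 : (c : F) * c ≠ 1 := by
      intro h
      apply hz1
      apply Subtype.ext
      apply Units.ext
      rw [hzM, h, one_smul]
      rfl
    have h6 : ((c : F) * c) * ((c : F) * c) = 1 := by
      apply hne1
      have h7 := congrArg (fun x : R => (((x : R) : GL (Fin 4) F) : Matrix (Fin 4) (Fin 4) F)) hzz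
      simp only [Subgroup.coe_mul, Units.val_mul, hzM, Matrix.smul_mul, Matrix.mul_smul, Matrix.one_mul, smul_smul,
        Subgroup.coe_one, Units.val_one] at h7
      exact h7
    have h7 : ((c : F) * c - 1) * ((c : F) * c + 1) = 0 := by linear_combination h6
    rcases mul_eq_zero.1 h7 with h8 | h8
    · exact absurd (sub_eq_zero.1 h8) h5
    · linear_combination h8
  have hzM' : (((z₀ : R) : GL (Fin 4) F) : Matrix (Fin 4) (Fin 4) F) = -1 := by
    rw [hzM, hcc, neg_smul, one_smul]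
  have hzcc : ∀ w : R, z₀ * w = w * z₀ := fun w => (Subgroup.mem_center_iff.1 hzc w).symm
  have hcomm : ∀ x y : R, x * y = y * x ∨ x * y = z₀ * (y * x) := by
    intro x y
    rcases hs2 x y with h | h
    · left
      have h1 : x * y * x⁻¹ * y⁻¹ = 1 := by simpa [commutatorElement_def] using h
      calc x * y = (x * y * x⁻¹ * y⁻¹) * (y * x) := by group
        _ = y * x := by rw [h1, one_mul]
    · right
      have h1 : x * y * x⁻¹ * y⁻¹ = z₀ := by simpa [commutatorElement_def] using h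
      rw [← h1]
      group
  obtain ⟨t₁, t₂, t₃, t₄, s₁, s₂, s₃, s₄, a₁₂, a₃₄, c₁₃, c₁₄, c₂₃, c₂₄, hgen⟩ :=
    Cfsg.Agent.Lib.Pauli4.Group.exists_basis hR64 ι₀ z₀ (fun w => (Subgroup.mem_center_iff.1 hι₀c w).symm) rfl hzz hz1 hZ4
      hs1 hcomm
  have tomat : ∀ {a b c d : R}, a * b = c * d →
      ((a : GL (Fin 4) F) : Matrix (Fin 4) (Fin 4) F) * (b : GL (Fin 4) F) = ((c : GL (Fin 4) F) : Matrix (Fin 4) (Fin 4) F) * (d : GL (Fin 4) F) := by
    intro a b c d h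
    have := congrArg (fun x : R => (((x : R) : GL (Fin 4) F) : Matrix (Fin 4) (Fin 4) F)) h
    simpa only [Subgroup.coe_mul, Units.val_mul] using this
  have toone : ∀ {a : R}, a * a = 1 → ((a : GL (Fin 4) F) : Matrix (Fin 4) (Fin 4) F) * (a : GL (Fin 4) F) = 1 := by
    intro a h
    have := congrArg (fun x : R => (((x : R) : GL (Fin 4) F) : Matrix (Fin 4) (Fin 4) F)) h
    simpa only [Subgroup.coe_mul, Units.val_mul, Subgroup.coe_one, Units.val_one] using this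
  have toanti : ∀ {a b : R}, a * b = z₀ * (b * a) →
      ((a : GL (Fin 4) F) : Matrix (Fin 4) (Fin 4) F) * (b : GL (Fin 4) F) = -(((b : GL (Fin 4) F) : Matrix (Fin 4) (Fin 4) F) * (a : GL (Fin 4) F)) := by
    intro a b h
    have := congrArg (fun x : R => (((x : R) : GL (Fin 4) F) : Matrix (Fin 4) (Fin 4) F)) h
    simp only [Subgroup.coe_mul, Units.val_mul, hzM'] at this
    rw [this]
    simp
  refine ⟨c, ι₀, t₁, t₂, t₃, t₄, ?_⟩
  exact {
    hA := hR.absIrred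
    card := hR64
    cardZ := hZ4
    two := h2F
    ii := hcc
    hι := hc
    ιR := ι₀.2
    t₁R := t₁.2
    t₂R := t₂.2
    t₃R := t₃.2
    t₄R := t₄.2
    s₁ := toone s₁
    s₂ := toone s₂
    s₃ := toone s₃
    s₄ := toone s₄
    a₁₂ := toanti a₁₂
    a₃₄ := toanti a₃₄
    c₁₃ := tomat c₁₃
    c₁₄ := tomat c₁₄
    c₂₃ := tomat c₂₃
    c₂₄ := tomat c₂₄
    gen := by
      have h1 := congrArg (Subgroup.map R.subtype) hgen
      rw [MonoidHom.map_closure] at h1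
      have h2 : R.subtype '' ({ι₀, t₁, t₂, t₃, t₄} : Set R) = ({(ι₀ : GL (Fin 4) F), (t₁ : GL (Fin 4) F), (t₂ : GL (Fin 4) F), (t₃ : GL (Fin 4) F), (t₄ : GL (Fin 4) F)} : Set (GL (Fin 4) F)) := by
        simp only [Set.image_insert_eq, Set.image_singleton, Subgroup.subtype_apply]
      rw [h2] at h1
      rw [h1, ← MonoidHom.range_eq_map, Subgroup.range_subtype]
    sqR := by
      intro x hx
      rcases hs1 ⟨x, hx⟩ with h | h
      · left
        exact toone (a := ⟨x, hx⟩) h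
      · right
        have := congrArg (fun x : R => (((x : R) : GL (Fin 4) F) : Matrix (Fin 4) (Fin 4) F)) h
        simpa only [Subgroup.coe_mul, Units.val_mul, hzM'] using this
    commR := by
      intro x hx y hy
      rcases hcomm ⟨x, hx⟩ ⟨y, hy⟩ with h | h
      · left
        exact tomat (a := ⟨x, hx⟩) (b := ⟨y, hy⟩) (c := ⟨y, hy⟩) (d := ⟨x, hx⟩) h
      · right
        exact toanti (a := ⟨x, hx⟩) (b := ⟨y, hy⟩) h
    pow4 := by
      intro x hx
      have := congrArg Subtype.val (h4 ⟨x, hx⟩)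
      simpa using this
  }

end Cfsg.Agent.Lib.Pauli4.Setup
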