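import Mathlib
import Cfsg.Agent.Lib.Pauli4.Setup
import Cfsg.Agent.Lib.Pauli4.Group

/-!
# Elements normalizing an absolutely irreducible `4 ∘ 2^{1+4}` in `GL₄(F)`: the centralizer in `R`
and the trace
-/

set_option autoImplicit false

namespace Cfsg.Agent.Lib.Pauli4.Forward

open Cfsg Cfsg.Geo Matrix Cfsg.Agent.Lib.Asch.SC Cfsg.Agent.Lib.Pauli4.Setup
open scoped MatrixGroups

section Generic

variable {G : Type*} [Group G]

/-- Fixed points of an element of order dividing `r`. -/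
theorem card_inf_modEq (D : Subgroup G) [Finite D] (x : G) (r : ℕ) [Fact r.Prime]
    (hx : ∀ u ∈ D, x * u * x⁻¹ ∈ D) (hxr : ∀ u ∈ D, x ^ r * u = u * x ^ r) :
    Nat.card ↥(D ⊓ Subgroup.centralizer {x}) ≡ Nat.card D [MOD r] := by
  classical
  haveI := Fintype.ofFinite D
  let f : Function.End D := fun u => ⟨x * u * x⁻¹, hx u u.2⟩
  have hk : ∀ k : ℕ, ∀ u : D, (((f ^ k) u : D) : G) = x ^ k * u * (x ^ k)⁻¹ := by
    intro k
    induction k with
    | zero => intro u; simp; rfl
    | succ k ih =>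
      intro u
      rw [pow_succ']
      change ((f ((f ^ k) u) : D) : G) = _
      change x * (((f ^ k) u : D) : G) * x⁻¹ = _
      rw [ih]
      rw [pow_succ']
      group
  have hf : f ^ r ^ 1 = 1 := by
    rw [pow_one]
    funext u
    apply Subtype.ext
    rw [hk]
    change x ^ r * (u : G) * (x ^ r)⁻¹ = u
    rw [hxr u u.2]
    group
  have h1 := Equiv.Perm.card_fixedPoints_modEq (p := r) (n := 1) hf
  have e : ↥(D ⊓ Subgroup.centralizer {x}) ≃ ↥(Function.fixedPoints f) := by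
    refine ⟨fun u => ⟨⟨u.1, u.2.1⟩, ?_⟩, fun u => ⟨u.1.1, u.1.2, ?_⟩, fun u => rfl, fun u => rfl⟩
    · apply Subtype.ext
      have h2 : u.1 * x = x * u.1 := by
        have := (Subgroup.mem_inf.1 u.2).2
        rw [Subgroup.mem_centralizer_iff] at this
        exact (this x rfl).symm
      change x * u.1 * x⁻¹ = u.1
      rw [← h2]
      group
    · change u.1.1 ∈ Subgroup.centralizer {x}
      rw [Subgroup.mem_centralizer_iff]
      rintro g rfl
      have h2 := congrArg Subtype.val u.2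
      change g * u.1.1 * g⁻¹ = u.1.1 at h2
      rw [mul_inv_eq_iff_eq_mul] at h2
      exact h2
  rw [Nat.card_congr e, Nat.card_eq_fintype_card, Nat.card_eq_fintype_card]
  exact h1.symm

/-- The commutator with an element of order prime to `4`. -/
theorem comm_eq_one_of_central {x v w : G} {r : ℕ} (hr : Nat.Coprime r 4) (hw : x * v * x⁻¹ * v⁻¹ = w)
    (hwx : w * x = x * w) (hwv : w * v = v * w) (hw4 : w ^ 4 = 1) (hxr : x ^ r * v = v * x ^ r) : w = 1 := by
  have hx : x * v * x⁻¹ = w * v := by rw [← hw]; group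
  have hk : ∀ k : ℕ, x ^ k * v * (x ^ k)⁻¹ = w ^ k * v := by
    intro k
    induction k with
    | zero => simp
    | succ k ih =>
      have h1 : x ^ (k + 1) * v * (x ^ (k + 1))⁻¹ = x * (x ^ k * v * (x ^ k)⁻¹) * x⁻¹ := by
        rw [pow_succ']
        group
      rw [h1, ih]
      have hc : Commute x (w ^ k) := Commute.pow_right (show Commute x w from hwx.symm) k
      have h3 : x * (w ^ k * v) * x⁻¹ = w ^ k * (x * v * x⁻¹) := by
        rw [← mul_assoc, hc.eq]
        group
      rw [h3, hx, pow_succ]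
      group
  have h1 := hk r
  rw [hxr] at h1
  have h2 : w ^ r = 1 := by
    have h3 : w ^ r * v = 1 * v := by rw [← h1, one_mul]; group
    exact mul_right_cancel h3
  have h3 : orderOf w ∣ Nat.gcd r 4 := Nat.dvd_gcd (orderOf_dvd_of_pow_eq_one h2) (orderOf_dvd_of_pow_eq_one hw4)
  rw [hr] at h3
  exact orderOf_eq_one_iff.1 (Nat.dvd_one.1 h3)

end Generic

end Cfsg.Agent.Lib.Pauli4.Forward

namespace Cfsg.Agent.Lib.Pauli4.Setup

open Cfsg Cfsg.Geo Matrix Cfsg.Agent.Lib.Asch.SC Cfsg.Agent.Lib.Pauli4.Forward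
open scoped MatrixGroups

variable {F : Type*} [Field F]

/-- The full matrix algebra. -/
abbrev Mat (F : Type*) [Field F] := Matrix (Fin 4) (Fin 4) F

variable {R : Subgroup (GL (Fin 4) F)} {i : F} {ι t₁ t₂ t₃ t₄ : GL (Fin 4) F}

namespace Cfg

variable (h : Cfg R i ι t₁ t₂ t₃ t₄)
include h

theorem scC : ScC R := by
  intro x hx y hy
  rcases h.commR x hx y hy with h1 | h1
  · exact ⟨1, by rw [h1, one_smul]⟩
  · exact ⟨-1, by rw [h1, neg_smul, one_smul]⟩

theorem finite : Finite R := Nat.finite_of_card_ne_zero (by rw [h.card]; norm_num)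

theorem finite_inf (K : Subgroup (GL (Fin 4) F)) : Finite ↥(R ⊓ K) := by
  haveI := h.finite
  exact Finite.of_injective (Subgroup.inclusion (inf_le_left : R ⊓ K ≤ R)) (Subgroup.inclusion_injective _)

theorem card_Z : Nat.card ↥(R ⊓ scalars (Fin 4) F) = 4 := by
  have h1 := h.cardZ
  rw [center_eq h.hA, ← Subgroup.inf_subgroupOf_left] at h1
  exact (Nat.card_congr (Subgroup.subgroupOfEquivOfLe (inf_le_left : R ⊓ scalars (Fin 4) F ≤ R)).toEquiv).symm.trans h1

theorem Z_le (x : GL (Fin 4) F) : R ⊓ scalars (Fin 4) F ≤ R ⊓ Subgroup.centralizer {x} := by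
  intro u hu
  obtain ⟨hu, huZ⟩ := Subgroup.mem_inf.1 hu
  refine Subgroup.mem_inf.2 ⟨hu, ?_⟩
  rw [Subgroup.mem_centralizer_iff]
  rintro g rfl
  exact comm_of_mem_scalars huZ |>.symm

omit h in
theorem conj_mem {x u : GL (Fin 4) F} (hx : x ∈ subgroupNormalizer R) (hu : u ∈ R) : x * u * x⁻¹ ∈ R :=
  (Subgroup.mem_normalizer_iff.1 hx u).1 hu

/-- The possible orders of the centralizer. -/
theorem card_cases {x : GL (Fin 4) F} (hxZ : x ∉ scalars (Fin 4) F) :
    Nat.card ↥(R ⊓ Subgroup.centralizer {x}) = 4 ∨ Nat.card ↥(R ⊓ Subgroup.centralizer {x}) = 8 ∨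
      Nat.card ↥(R ⊓ Subgroup.centralizer {x}) = 16 ∨ Nat.card ↥(R ⊓ Subgroup.centralizer {x}) = 32 := by
  haveI := h.finite
  haveI := h.finite_inf
  have h1 : Nat.card ↥(R ⊓ Subgroup.centralizer {x}) ∣ 2 ^ 6 := by
    have := Subgroup.card_dvd_of_le (inf_le_left : R ⊓ Subgroup.centralizer {x} ≤ R)
    rw [h.card] at this
    exact this
  obtain ⟨k, hk, hk2⟩ := (Nat.dvd_prime_pow Nat.prime_two).1 h1
  have h2 : 4 ≤ Nat.card ↥(R ⊓ Subgroup.centralizer {x}) :=
    calc 4 = Nat.card ↥(R ⊓ scalars (Fin 4) F) := h.card_Z.symm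
      _ ≤ _ := Subgroup.card_le_of_le (h.Z_le x)
  have h3 : Nat.card ↥(R ⊓ Subgroup.centralizer {x}) ≠ 64 := by
    intro h4
    have h5 : R ≤ Subgroup.centralizer {x} := by
      have h6 : R ⊓ Subgroup.centralizer {x} = R := by
        apply Subgroup.eq_of_le_of_card_ge inf_le_left
        rw [h4, h.card]
      exact inf_eq_left.1 h6
    apply hxZ
    apply mem_scalars_of_comm h.hA
    intro y hy
    have := h5 hy
    rw [Subgroup.mem_centralizer_iff] at this
    exact this x rfl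
  rw [hk2] at h2 h3 ⊢
  interval_cases k <;> simp_all

/-- The centralizer of `x` modulo `r`. -/
theorem card_modEq {x : GL (Fin 4) F} (hx : x ∈ subgroupNormalizer R) {r : ℕ} [Fact r.Prime]
    (hxr : x ^ r ∈ scalars (Fin 4) F) :
    Nat.card ↥(R ⊓ Subgroup.centralizer {x}) ≡ 64 [MOD r] := by
  haveI := h.finite
  have := card_inf_modEq R x r (fun u hu => conj_mem hx hu) (fun u _ => comm_of_mem_scalars hxr)
  rwa [h.card] at this

/-- A commutator in `R` which is scalar is trivial. -/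
theorem comm_scalar {x u : GL (Fin 4) F} (hx : x ∈ subgroupNormalizer R) {r : ℕ} (hr4 : Nat.Coprime r 4)
    (hxr : x ^ r ∈ scalars (Fin 4) F) (hu : u ∈ R) (hw : x * u * x⁻¹ * u⁻¹ ∈ scalars (Fin 4) F) :
    x * u * x⁻¹ * u⁻¹ = 1 := by
  have hwR : x * u * x⁻¹ * u⁻¹ ∈ R := R.mul_mem (conj_mem hx hu) (R.inv_mem hu)
  exact comm_eq_one_of_central hr4 rfl (comm_of_mem_scalars hw) (comm_of_mem_scalars hw) (h.pow4 _ hwR)
    (comm_of_mem_scalars hxr)

/-- Traces of the elements normalizing `R`. -/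
theorem trace_formula {x : GL (Fin 4) F} (hx : x ∈ subgroupNormalizer R) {r : ℕ} (hr4 : Nat.Coprime r 4)
    (hxr : x ^ r ∈ scalars (Fin 4) F) :
    ((Nat.card ↥(R ⊓ Subgroup.centralizer {x}) : ℕ) : F) =
      4 * Matrix.trace (x : Mat F) * Matrix.trace ((x⁻¹ : GL (Fin 4) F) : Mat F) := by
  classical
  haveI := h.finite
  haveI := Fintype.ofFinite R
  let g : R → GL (Fin 4) F := fun u => (u : GL (Fin 4) F) * x * (u : GL (Fin 4) F)⁻¹
  let S : Mat F := ∑ u : R, (g u : Mat F)
  have hgv : ∀ (v u : R), ((g (v * u) : Mat F)) * (v : GL (Fin 4) F) = (v : GL (Fin 4) F) * (g u : Mat F) := by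
    intro v u
    rw [← Units.val_mul, ← Units.val_mul]
    congr 1
    simp only [g, Subgroup.coe_mul]
    group
  have hSc : ∀ s ∈ matrixSet R, S * s = s * S := by
    rintro _ ⟨v, hv, rfl⟩
    change S * (v : Mat F) = (v : Mat F) * S
    simp only [S]
    rw [Finset.mul_sum, Finset.sum_mul, ← Equiv.sum_comp (Equiv.mulLeft (⟨v, hv⟩ : R))]
    refine Finset.sum_congr rfl fun u _ => ?_
    exact hgv ⟨v, hv⟩ u
  obtain ⟨c, hc⟩ := h.hA.2 S hSc
  have hcardR : (Finset.univ : Finset R).card = 64 := by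
    rw [Finset.card_univ, ← Nat.card_eq_fintype_card, h.card]
  have htrg : ∀ u : R, Matrix.trace (g u : Mat F) = Matrix.trace (x : Mat F) := by
    intro u
    simp only [g]
    rw [Units.val_mul, Units.val_mul, Matrix.trace_mul_comm, ← mul_assoc, ← Units.val_mul, inv_mul_cancel, Units.val_one, one_mul]
  have h1 : c * 4 = 64 * Matrix.trace (x : Mat F) := by
    have h2 := congrArg Matrix.trace hc
    rw [Matrix.trace_smul, Matrix.trace_one, Fintype.card_fin, smul_eq_mul] at h2
    simp only [S] at h2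
    rw [Matrix.trace_sum] at h2
    simp only [htrg, Finset.sum_const, hcardR, nsmul_eq_mul] at h2
    rw [← Nat.cast_ofNat (R := F) (n := 4), ← h2]
    norm_num
  have hterm : ∀ u : R, Matrix.trace ((g u : Mat F) * ((x⁻¹ : GL (Fin 4) F) : Mat F)) =
      if (u : GL (Fin 4) F) * x = x * u then 4 else 0 := by
    intro u
    rw [← Units.val_mul]
    split_ifs with hu
    · have h2 : g u * x⁻¹ = 1 := by
        simp only [g]
        rw [hu]
        group
      rw [h2, Units.val_one, Matrix.trace_one, Fintype.card_fin]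
      norm_num
    · have hwR : g u * x⁻¹ ∈ R := by
        have : g u * x⁻¹ = (u : GL (Fin 4) F) * (x * (u : GL (Fin 4) F)⁻¹ * x⁻¹) := by
          simp only [g]
          group
        rw [this]
        exact R.mul_mem u.2 (conj_mem hx (R.inv_mem u.2))
      apply trace_eq_zero h.hA h.scC hwR
      intro hw
      apply hu
      have h3 : x * (u : GL (Fin 4) F)⁻¹ * x⁻¹ * ((u : GL (Fin 4) F)⁻¹)⁻¹ = g u * x⁻¹ := by
        have h4 : g u * x⁻¹ * (u : GL (Fin 4) F) = (u : GL (Fin 4) F) * (g u * x⁻¹) := comm_of_mem_scalars hw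
        have h5 : x * (u : GL (Fin 4) F)⁻¹ * x⁻¹ * ((u : GL (Fin 4) F)⁻¹)⁻¹ = (u : GL (Fin 4) F)⁻¹ * (g u * x⁻¹ * (u : GL (Fin 4) F)) := by
          simp only [g]
          group
        rw [h5, h4]
        group
      have h6 := h.comm_scalar hx hr4 hxr (R.inv_mem u.2) (by rw [h3]; exact hw)
      rw [h3] at h6
      simp only [g] at h6
      have h7 : (u : GL (Fin 4) F) * x * (u : GL (Fin 4) F)⁻¹ * x⁻¹ * (x * u) = u * x := by group
      rw [h6, one_mul] at h7
      exact h7.symm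
  have hcard : ((Nat.card ↥(R ⊓ Subgroup.centralizer {x}) : ℕ) : F) =
      ((Finset.univ.filter fun u : R => (u : GL (Fin 4) F) * x = x * u).card : F) := by
    congr 1
    rw [← Fintype.card_subtype, ← Nat.card_eq_fintype_card]
    refine Nat.card_congr ⟨fun u => ⟨⟨u.1, (Subgroup.mem_inf.1 u.2).1⟩, ?_⟩, fun u => ⟨u.1.1, Subgroup.mem_inf.2 ⟨u.1.2, ?_⟩⟩, fun u => rfl, fun u => rfl⟩
    · have := (Subgroup.mem_inf.1 u.2).2
      rw [Subgroup.mem_centralizer_iff] at this
      exact (this x rfl).symm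
    · rw [Subgroup.mem_centralizer_iff]
      rintro g rfl
      exact u.2.symm
  have h2 : c * Matrix.trace ((x⁻¹ : GL (Fin 4) F) : Mat F) =
      ((Nat.card ↥(R ⊓ Subgroup.centralizer {x}) : ℕ) : F) * 4 := by
    have h3 := congrArg (fun X : Mat F => Matrix.trace (X * ((x⁻¹ : GL (Fin 4) F) : Mat F))) hc
    simp only [S, Finset.sum_mul, Matrix.trace_sum, hterm, Matrix.smul_mul, Matrix.one_mul, Matrix.trace_smul, smul_eq_mul] at h3
    rw [← h3, hcard, Finset.sum_ite, Finset.sum_const_zero, add_zero, Finset.sum_const, nsmul_eq_mul]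
  have h16 : (16 : F) ≠ 0 := by
    have h3 := h.two
    have : (16 : F) = 2 * 2 * 2 * 2 := by norm_num
    rw [this]
    exact mul_ne_zero (mul_ne_zero (mul_ne_zero h3 h3) h3) h3
  apply mul_left_cancel₀ h16
  linear_combination (-4) * h2 + Matrix.trace ((x⁻¹ : GL (Fin 4) F) : Mat F) * h1

omit h in
private theorem not_dvd_aux {r m : ℕ} (hp : r.Prime) (h7 : 7 ≤ r) (hm : m = 60 ∨ m = 48 ∨ m = 32) (hd : r ∣ m) : False := by
  have h1 : r ≤ 60 := by
    have := Nat.le_of_dvd (by omega) hd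
    omega
  rcases hm with rfl | rfl | rfl <;> interval_cases r <;> first | omega | (exact absurd hp (by norm_num))

omit h in
private theorem eq8_aux {m : ℕ} (h1 : m ∣ 8) (h2 : 4 < m) : m = 8 := by
  have := Nat.le_of_dvd (by norm_num) h1
  interval_cases m <;> omega

omit h in
private theorem seven_aux {r : ℕ} (hp : r.Prime) (h7 : 7 ≤ r) (hd : r ∣ 56) : r = 7 := by
  have h1 := Nat.le_of_dvd (by omega) hd
  interval_cases r <;> first | omega | rfl | (exact absurd hp (by norm_num))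

/-- Elements of large prime order do not normalize `R`. -/
theorem no_large {x : GL (Fin 4) F} (hx : x ∈ subgroupNormalizer R) (hxZ : x ∉ scalars (Fin 4) F) {r : ℕ}
    [Fact r.Prime] (hr7 : 7 ≤ r) (hxr : x ^ r ∈ scalars (Fin 4) F) : False := by
  have hp : r.Prime := Fact.out
  haveI := h.finite
  haveI := h.finite_inf
  have hmod := h.card_modEq hx hxr
  set n := Nat.card ↥(R ⊓ Subgroup.centralizer {x}) with hn
  have hcases := h.card_cases hxZ
  rw [← hn] at hcases
  have hd : n ≤ 64 → r ∣ 64 - n := fun hle => (Nat.modEq_iff_dvd' hle).1 hmod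
  have h8 : n = 8 := by
    rcases hcases with h1 | h1 | h1 | h1
    · rw [h1] at hd
      exact (not_dvd_aux hp hr7 (m := 60) (Or.inl rfl) (hd (by norm_num))).elim
    · exact h1
    · rw [h1] at hd
      exact (not_dvd_aux hp hr7 (m := 48) (Or.inr (Or.inl rfl)) (hd (by norm_num))).elim
    · rw [h1] at hd
      exact (not_dvd_aux hp hr7 (m := 32) (Or.inr (Or.inr rfl)) (hd (by norm_num))).elim
  have hr : r = 7 := by
    rw [h8] at hd
    exact seven_aux hp hr7 (hd (by norm_num))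
  -- an element of the centralizer outside the centre
  obtain ⟨v, hv, hvZ⟩ : ∃ v ∈ R ⊓ Subgroup.centralizer {x}, v ∉ scalars (Fin 4) F := by
    by_contra hcon
    push Not at hcon
    have h1 : R ⊓ Subgroup.centralizer {x} ≤ R ⊓ scalars (Fin 4) F := fun u hu =>
      Subgroup.mem_inf.2 ⟨(Subgroup.mem_inf.1 hu).1, hcon u hu⟩
    have h2 := Subgroup.card_le_of_le h1
    rw [h.card_Z, ← hn, h8] at h2
    omega
  obtain ⟨hvR, hvx⟩ := Subgroup.mem_inf.1 hv
  have hvx' : x * v = v * x := by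
    rw [Subgroup.mem_centralizer_iff] at hvx
    exact hvx x rfl
  obtain ⟨a, haR, ha⟩ : ∃ a ∈ R, a * v ≠ v * a := by
    by_contra hcon
    push Not at hcon
    apply hvZ
    apply mem_scalars_of_comm h.hA
    intro y hy
    exact (hcon y hy).symm
  have h1neg : (-1 : GL (Fin 4) F) ≠ 1 := by
    intro h3
    have h4 := congrArg Units.val h3
    have h5 := congrFun (congrFun h4 0) 0
    simp at h5
    have h6 : (2 : F) = 0 := by linear_combination -h5
    exact h.two h6
  have hanti : ∀ b ∈ R, b * v = v * b ∨ b * v = (-1 : GL (Fin 4) F) * (v * b) := by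
    intro b hb
    rcases h.commR b hb v hvR with h3 | h3
    · left
      exact Units.ext (by simpa using h3)
    · right
      exact Units.ext (by simpa using h3)
  have hhalf := Cfsg.Agent.Lib.Pauli4.Group.halve (z := (-1 : GL (Fin 4) F)) (by simp) h1neg (by simp) R hanti haR
    ((hanti a haR).resolve_left ha)
  rw [h.card] at hhalf
  set D := R ⊓ Subgroup.centralizer {v} with hD
  haveI hRfin : Finite D := h.finite_inf _
  haveI hRfin2 : Finite ↥(D ⊓ Subgroup.centralizer {x}) :=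
    Finite.of_injective (Subgroup.inclusion (inf_le_left : D ⊓ Subgroup.centralizer {x} ≤ D)) (Subgroup.inclusion_injective _)
  have hDx : ∀ u ∈ D, x * u * x⁻¹ ∈ D := by
    intro u hu
    obtain ⟨huR, huv⟩ := Subgroup.mem_inf.1 hu
    refine Subgroup.mem_inf.2 ⟨conj_mem hx huR, ?_⟩
    rw [Cfsg.Agent.Lib.Pauli4.Group.mem_cent] at huv ⊢
    calc x * u * x⁻¹ * v = x * u * (x⁻¹ * v * x) * x⁻¹ := by group
      _ = x * u * v * x⁻¹ := by
        have : x⁻¹ * v * x = v :=
          calc x⁻¹ * v * x = x⁻¹ * (v * x) := by group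
            _ = x⁻¹ * (x * v) := by rw [hvx']
            _ = v := by group
        rw [this]
      _ = x * (u * v) * x⁻¹ := by group
      _ = x * (v * u) * x⁻¹ := by rw [huv]
      _ = (x * v) * u * x⁻¹ := by group
      _ = v * (x * u * x⁻¹) := by rw [hvx']; group
  haveI : Fact r.Prime := ⟨hp⟩
  have hmod2 := card_inf_modEq D x r hDx (fun u _ => comm_of_mem_scalars hxr)
  have hcD : Nat.card D = 32 := by omega
  rw [hcD] at hmod2
  have hle : D ⊓ Subgroup.centralizer {x} ≤ R ⊓ Subgroup.centralizer {x} := by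
    intro u hu
    obtain ⟨h3, h4⟩ := Subgroup.mem_inf.1 hu
    exact Subgroup.mem_inf.2 ⟨(Subgroup.mem_inf.1 h3).1, h4⟩
  have hdvd := Subgroup.card_dvd_of_le hle
  rw [← hn, h8] at hdvd
  have hZle : R ⊓ scalars (Fin 4) F ≤ D ⊓ Subgroup.centralizer {x} := by
    intro u hu
    obtain ⟨h3, h4⟩ := Subgroup.mem_inf.1 hu
    refine Subgroup.mem_inf.2 ⟨Subgroup.mem_inf.2 ⟨h3, ?_⟩, ?_⟩
    · rw [Cfsg.Agent.Lib.Pauli4.Group.mem_cent]
      exact comm_of_mem_scalars h4
    · rw [Cfsg.Agent.Lib.Pauli4.Group.mem_cent]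
      exact comm_of_mem_scalars h4
  have hlt : 4 < Nat.card ↥(D ⊓ Subgroup.centralizer {x}) := by
    by_contra hcon
    have h3 : R ⊓ scalars (Fin 4) F = D ⊓ Subgroup.centralizer {x} := by
      apply Subgroup.eq_of_le_of_card_ge hZle
      rw [h.card_Z]
      omega
    have h4 : v ∈ R ⊓ scalars (Fin 4) F := by
      rw [h3]
      refine Subgroup.mem_inf.2 ⟨Subgroup.mem_inf.2 ⟨hvR, ?_⟩, ?_⟩
      · rw [Cfsg.Agent.Lib.Pauli4.Group.mem_cent]
      · rw [Cfsg.Agent.Lib.Pauli4.Group.mem_cent]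
        exact hvx'.symm
    exact hvZ (Subgroup.mem_inf.1 h4).2
  have h8' : Nat.card ↥(D ⊓ Subgroup.centralizer {x}) = 8 := eq8_aux hdvd hlt
  rw [h8', hr] at hmod2
  exact absurd hmod2 (by decide)

end Cfg

end Cfsg.Agent.Lib.Pauli4.Setup
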