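import Mathlib
import Cfsg.Agent.Lib.Pauli4.Forward

/-!
# Elements of `GL₄(F)` that do not normalize an absolutely irreducible `4 ∘ 2^{1+4}`
-/

set_option autoImplicit false

namespace Cfsg.Agent.Lib.Pauli4.Setup

open Cfsg Cfsg.Geo Matrix Cfsg.Agent.Lib.Asch.SC Cfsg.Agent.Lib.Pauli4.Forward
open scoped MatrixGroups

variable {F : Type*} [Field F]

variable {R : Subgroup (GL (Fin 4) F)} {i : F} {ι t₁ t₂ t₃ t₄ : GL (Fin 4) F}

namespace Cfg

variable (h : Cfg R i ι t₁ t₂ t₃ t₄)
include h

theorem two_pow_ne_zero (n : ℕ) : (2 : F) ^ n ≠ 0 := pow_ne_zero n h.two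

theorem four_ne_zero : (4 : F) ≠ 0 := by
  have := h.two_pow_ne_zero 2
  norm_num at this
  exact this

theorem eight_ne_zero : (8 : F) ≠ 0 := by
  have := h.two_pow_ne_zero 3
  norm_num at this
  exact this

omit h in
/-- The calculation behind the absence of rank one elements. -/
theorem rank_one_calc {A N : Mat F} {μ c : F} (hAA : A * A = 0) (hNN : N * N = 0) (hANA : A * N * A = μ • A)
    (hW : ((1 + A) * (1 - N)) * ((1 + A) * (1 - N)) = c • 1) : (μ * μ - 2 * μ) • A = 0 := by
  have h1 : A * ((1 + A) * (1 - N)) = A - A * N := by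
    rw [← mul_assoc, mul_add, mul_one, hAA, add_zero, mul_sub, mul_one]
  have h2 : ((1 + A) * (1 - N)) * A = A - N * A - μ • A := by
    calc ((1 + A) * (1 - N)) * A = (1 + A) * (A - N * A) := by rw [mul_assoc, sub_mul, one_mul]
      _ = A - N * A + (A * A - A * (N * A)) := by rw [add_mul, one_mul, mul_sub]
      _ = _ := by rw [hAA, ← mul_assoc, hANA]; abel
  have h3 : (A - A * N) * (A - N * A - μ • A) = (μ * μ - 2 * μ) • A := by
    have e1 : A * N * (N * A) = 0 := by rw [mul_assoc, ← mul_assoc N, hNN, zero_mul, mul_zero]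
    have e3 : A * (N * A) = μ • A := by rw [← mul_assoc, hANA]
    simp only [sub_mul, mul_sub, mul_smul_comm, hAA, e1, e3, hANA]
    module
  rw [← h3, ← h1, ← h2]
  have h4 : A * ((1 + A) * (1 - N)) * (((1 + A) * (1 - N)) * A) = A * (((1 + A) * (1 - N)) * ((1 + A) * (1 - N))) * A := by
    simp only [mul_assoc]
  rw [h4, hW, mul_smul_comm, mul_one, smul_mul_assoc, hAA, smul_zero]

/-- Rank one unipotent elements do not normalize `R`. -/
theorem no_rank_one {x : GL (Fin 4) F} (hx : x ∈ subgroupNormalizer R) (N : Mat F) (hxN : (x : Mat F) = 1 + N)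
    (hN2 : N * N = 0) (htr : Matrix.trace N = 0) (hN : ∀ P : Mat F, N * P * N = Matrix.trace (N * P) • N)
    (hN0 : N ≠ 0) : False := by
  have h4 := h.four_ne_zero
  have h8 := h.eight_ne_zero
  have hxinv : ((x⁻¹ : GL (Fin 4) F) : Mat F) = 1 - N := by
    have h1 : (x : Mat F) * (1 - N) = 1 := by
      rw [hxN, add_mul, one_mul, mul_sub, mul_one, hN2]
      abel
    calc ((x⁻¹ : GL (Fin 4) F) : Mat F) = ((x⁻¹ : GL (Fin 4) F) : Mat F) * ((x : Mat F) * (1 - N)) := by
          rw [h1, mul_one]
      _ = (((x⁻¹ : GL (Fin 4) F) : Mat F) * (x : Mat F)) * (1 - N) := by rw [mul_assoc]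
      _ = 1 - N := by rw [← Units.val_mul, inv_mul_cancel, Units.val_one, one_mul]
  have key : ∀ u ∈ R, x * u = u * x := by
    intro u hu
    set w : GL (Fin 4) F := u * x * u⁻¹ * x⁻¹ with hw
    have hwR : w ∈ R := by
      have : w = u * (x * u⁻¹ * x⁻¹) := by rw [hw]; group
      rw [this]
      exact R.mul_mem hu (conj_mem hx (R.inv_mem hu))
    have huu : (u : Mat F) * ((u⁻¹ : GL (Fin 4) F) : Mat F) = 1 := by
      rw [← Units.val_mul, mul_inv_cancel, Units.val_one]
    have huu' : ((u⁻¹ : GL (Fin 4) F) : Mat F) * (u : Mat F) = 1 := by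
      rw [← Units.val_mul, inv_mul_cancel, Units.val_one]
    set U : Mat F := (u : Mat F) with hU
    set V : Mat F := ((u⁻¹ : GL (Fin 4) F) : Mat F) with hV
    set A : Mat F := U * N * V with hA
    have hconj : ((u * x * u⁻¹ : GL (Fin 4) F) : Mat F) = 1 + A := by
      rw [Units.val_mul, Units.val_mul, hxN, ← hU, ← hV, mul_add, add_mul, mul_one, huu, hA]
    have hwM : (w : Mat F) = (1 + A) * (1 - N) := by
      rw [hw, Units.val_mul, hconj, hxinv]
    have hAA : A * A = 0 := by
      calc A * A = U * N * (V * U) * N * V := by simp only [hA, mul_assoc]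
        _ = 0 := by rw [huu', mul_one, mul_assoc U, hN2, mul_zero, zero_mul]
    have htrA : Matrix.trace A = 0 := by
      rw [hA, Matrix.trace_mul_comm, ← mul_assoc, huu', one_mul, htr]
    set μ : F := Matrix.trace (A * N) with hμ
    have hANA : A * N * A = μ • A := by
      have e1 : Matrix.trace (N * (V * N * U)) = μ := by
        have e2 : N * (V * N * U) = (N * V * N) * U := by simp only [mul_assoc]
        rw [e2, Matrix.trace_mul_comm, hμ, hA]
        simp only [mul_assoc]
      calc A * N * A = U * (N * (V * N * U) * N) * V := by simp only [hA, mul_assoc]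
        _ = μ • A := by rw [hN, e1, mul_smul_comm, smul_mul_assoc]
    by_cases hwZ : w ∈ scalars (Fin 4) F
    · obtain ⟨c, hc⟩ := (mem_scalars_iff w).1 hwZ
      have h1 : ((u * x * u⁻¹ : GL (Fin 4) F) : Mat F) = (c : F) • (x : Mat F) := by
        have h2 : u * x * u⁻¹ = w * x := by rw [hw]; group
        rw [h2, Units.val_mul, hc, Matrix.smul_mul, Matrix.one_mul]
      have h3 : (4 : F) = (c : F) * 4 := by
        have h5 := congrArg Matrix.trace h1
        rw [hconj, hxN, Matrix.trace_smul, Matrix.trace_add, Matrix.trace_add, htrA, htr, Matrix.trace_one, smul_eq_mul] at h5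
        simpa using h5
      have hc1 : (c : F) = 1 := by
        have h5 : ((c : F) - 1) * 4 = 0 := by linear_combination -h3
        exact sub_eq_zero.1 ((mul_eq_zero.1 h5).resolve_right h4)
      have hw1 : w = 1 := by
        apply Units.ext
        rw [hc, hc1, one_smul, Units.val_one]
      have h5 : u * x * u⁻¹ * x⁻¹ * (x * u) = u * x := by group
      rw [← hw, hw1, one_mul] at h5
      exact h5
    · exfalso
      have htw := trace_eq_zero h.hA h.scC hwR hwZ
      have hμ4 : μ = 4 := by
        rw [hwM] at htw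
        have h5 : (1 + A) * (1 - N) = 1 + A - N - A * N := by
          rw [add_mul, one_mul, mul_sub, mul_one]
          abel
        rw [h5] at htw
        simp only [Matrix.trace_sub, Matrix.trace_add, Matrix.trace_one, htrA, htr, Fintype.card_fin] at htw
        have h6 : (4 : F) - μ = 0 := by
          rw [← hμ] at htw
          simpa using htw
        linear_combination -h6
      have hcc : ∃ c : F, (w : Mat F) * w = c • 1 := by
        rcases h.sqR w hwR with h5 | h5
        · exact ⟨1, by rw [h5, one_smul]⟩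
        · exact ⟨-1, by rw [h5, neg_smul, one_smul]⟩
      obtain ⟨c, hc⟩ := hcc
      rw [hwM] at hc
      have h5 := rank_one_calc hAA hN2 hANA hc
      rw [hμ4] at h5
      have h6 : ((4 : F) * 4 - 2 * 4) = 8 := by norm_num
      rw [h6] at h5
      have hA0 : A = 0 := (smul_eq_zero.1 h5).resolve_left h8
      apply hN0
      calc N = V * (U * N * V) * U := by
            have : V * (U * N * V) * U = (V * U) * N * (V * U) := by simp only [mul_assoc]
            rw [this, huu', one_mul, mul_one]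
        _ = 0 := by rw [← hA, hA0, mul_zero, zero_mul]
  have hZ := mem_scalars_of_comm h.hA key
  obtain ⟨c, hc⟩ := (mem_scalars_iff x).1 hZ
  have hN1 : N = ((c : F) - 1) • 1 := by
    rw [sub_smul, one_smul, ← hc, hxN]
    abel
  have h5 : ((c : F) - 1) * ((c : F) - 1) = 0 := by
    have h6 := congrFun (congrFun hN2 0) 0
    rw [hN1] at h6
    simpa [Matrix.mul_apply, Fin.sum_univ_four, Matrix.one_apply] using h6
  have h6 : (c : F) - 1 = 0 := mul_self_eq_zero.1 h5
  apply hN0
  rw [hN1, h6, zero_smul]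

/-- The same for conjugates of the standard transvection. -/
theorem no_transvection {x g : GL (Fin 4) F} (hxN : (x : Mat F) = 1 + single 0 1 1)
    (hx : g⁻¹ * x * g ∈ subgroupNormalizer R) : False := by
  set N₀ : Mat F := single 0 1 1 with hN₀
  have hN₀2 : N₀ * N₀ = 0 := by
    ext i j
    fin_cases i <;> fin_cases j <;> simp [hN₀, Matrix.mul_apply, Fin.sum_univ_four, Matrix.single_apply]
  have hN₀tr : Matrix.trace N₀ = 0 := by
    simp [hN₀, Matrix.trace, Fin.sum_univ_four, Matrix.single_apply]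
  have hN₀F : ∀ P : Mat F, N₀ * P * N₀ = Matrix.trace (N₀ * P) • N₀ := by
    intro P
    ext i j
    simp only [hN₀, Matrix.mul_apply, Fin.sum_univ_four, Matrix.single_apply, Matrix.trace, Matrix.diag, Matrix.smul_apply, smul_eq_mul]
    fin_cases i <;> fin_cases j <;> simp
  have hN₀0 : N₀ ≠ 0 := by
    intro h0
    have := congrFun (congrFun h0 0) 1
    simp [hN₀] at this
  have hgg : ((g⁻¹ : GL (Fin 4) F) : Mat F) * (g : Mat F) = 1 := by
    rw [← Units.val_mul, inv_mul_cancel, Units.val_one]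
  have hgg' : (g : Mat F) * ((g⁻¹ : GL (Fin 4) F) : Mat F) = 1 := by
    rw [← Units.val_mul, mul_inv_cancel, Units.val_one]
  set G : Mat F := (g : Mat F) with hG
  set G' : Mat F := ((g⁻¹ : GL (Fin 4) F) : Mat F) with hG'
  apply h.no_rank_one hx (G' * N₀ * G)
  · rw [Units.val_mul, Units.val_mul, hxN, ← hG, ← hG', mul_add, add_mul, mul_one, hgg]
  · calc G' * N₀ * G * (G' * N₀ * G) = G' * N₀ * (G * G') * N₀ * G := by simp only [mul_assoc]
      _ = 0 := by rw [hgg', mul_one, mul_assoc G', hN₀2, mul_zero, zero_mul]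
  · rw [Matrix.trace_mul_comm, ← mul_assoc, hgg', one_mul, hN₀tr]
  · intro P
    have e1 : Matrix.trace (G' * N₀ * G * P) = Matrix.trace (N₀ * (G * P * G')) := by
      have e2 : G' * N₀ * G * P = G' * (N₀ * G * P) := by simp only [mul_assoc]
      rw [e2, Matrix.trace_mul_comm]
      simp only [mul_assoc]
    calc G' * N₀ * G * P * (G' * N₀ * G) = G' * (N₀ * (G * P * G') * N₀) * G := by simp only [mul_assoc]
      _ = _ := by rw [hN₀F, e1, mul_smul_comm, smul_mul_assoc]
  · intro h0
    apply hN₀0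
    calc N₀ = G * (G' * N₀ * G) * G' := by
          have : G * (G' * N₀ * G) * G' = (G * G') * N₀ * (G * G') := by simp only [mul_assoc]
          rw [this, hgg', one_mul, mul_one]
      _ = 0 := by rw [h0, mul_zero, zero_mul]

omit h in
/-- Traces of conjugates. -/
theorem trace_conj (g x : GL (Fin 4) F) : Matrix.trace ((g⁻¹ * x * g : GL (Fin 4) F) : Mat F) = Matrix.trace (x : Mat F) := by
  rw [Units.val_mul, Units.val_mul, Matrix.trace_mul_comm, ← mul_assoc, ← Units.val_mul g, mul_inv_cancel, Units.val_one, one_mul]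

omit h in
/-- Scalars are central. -/
theorem conj_scalar (g : GL (Fin 4) F) {w : GL (Fin 4) F} (hw : w ∈ scalars (Fin 4) F) : g * w * g⁻¹ = w := by
  rw [← comm_of_mem_scalars hw]
  group

/-- Elements of order three. -/
theorem trace_three {x g : GL (Fin 4) F} (hx : g⁻¹ * x * g ∈ subgroupNormalizer R)
    (hxZ : x ∉ scalars (Fin 4) F) (hx3 : x ^ 3 ∈ scalars (Fin 4) F) :
    4 * Matrix.trace (x : Mat F) * Matrix.trace ((x⁻¹ : GL (Fin 4) F) : Mat F) = 4 ∨
      4 * Matrix.trace (x : Mat F) * Matrix.trace ((x⁻¹ : GL (Fin 4) F) : Mat F) = 16 := by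
  have hZ : g⁻¹ * x * g ∉ scalars (Fin 4) F := by
    intro h1
    apply hxZ
    have h5 := conj_scalar g h1
    have h6 : g * (g⁻¹ * x * g) * g⁻¹ = x := by group
    rw [h6] at h5
    rw [h5]
    exact h1
  have h3 : (g⁻¹ * x * g) ^ 3 ∈ scalars (Fin 4) F := by
    have e : (g⁻¹ * x * g) ^ 3 = g⁻¹ * x ^ 3 * g := by
      have := conj_pow (a := g⁻¹) (b := x) (i := 3)
      simpa using this
    rw [e]
    have h5 := conj_scalar g⁻¹ hx3
    rw [inv_inv] at h5
    rw [h5]
    exact hx3
  have hc := h.card_cases hZ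
  haveI : Fact (Nat.Prime 3) := ⟨Nat.prime_three⟩
  have hm := h.card_modEq hx h3
  have hf := h.trace_formula hx (r := 3) (by norm_num) h3
  rw [trace_conj] at hf
  have hinv : (g⁻¹ * x * g)⁻¹ = g⁻¹ * x⁻¹ * g := by group
  rw [hinv, trace_conj] at hf
  rcases hc with h1 | h1 | h1 | h1
  · left
    rw [h1] at hf
    rw [← hf]
    norm_num
  · rw [h1] at hm
    exact absurd hm (by decide)
  · right
    rw [h1] at hf
    rw [← hf]
    norm_num
  · rw [h1] at hm
    exact absurd hm (by decide)

/-- Elements of order five. -/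
theorem trace_five {x g : GL (Fin 4) F} (hx : g⁻¹ * x * g ∈ subgroupNormalizer R)
    (hxZ : x ∉ scalars (Fin 4) F) (hx5 : x ^ 5 ∈ scalars (Fin 4) F) :
    Matrix.trace (x : Mat F) * Matrix.trace ((x⁻¹ : GL (Fin 4) F) : Mat F) = 1 := by
  have hZ : g⁻¹ * x * g ∉ scalars (Fin 4) F := by
    intro h1
    apply hxZ
    have h5 := conj_scalar g h1
    have h6 : g * (g⁻¹ * x * g) * g⁻¹ = x := by group
    rw [h6] at h5
    rw [h5]
    exact h1
  have h3 : (g⁻¹ * x * g) ^ 5 ∈ scalars (Fin 4) F := by
    have e : (g⁻¹ * x * g) ^ 5 = g⁻¹ * x ^ 5 * g := by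
      have := conj_pow (a := g⁻¹) (b := x) (i := 5)
      simpa using this
    rw [e]
    have h5 := conj_scalar g⁻¹ hx5
    rw [inv_inv] at h5
    rw [h5]
    exact hx5
  have hc := h.card_cases hZ
  haveI : Fact (Nat.Prime 5) := ⟨by norm_num⟩
  have hm := h.card_modEq hx h3
  have hf := h.trace_formula hx (r := 5) (by norm_num) h3
  rw [trace_conj] at hf
  have hinv : (g⁻¹ * x * g)⁻¹ = g⁻¹ * x⁻¹ * g := by group
  rw [hinv, trace_conj] at hf
  rcases hc with h1 | h1 | h1 | h1
  · rw [h1] at hf
    apply mul_left_cancel₀ h.four_ne_zero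
    rw [← mul_assoc, ← hf]
    norm_num
  · rw [h1] at hm
    exact absurd hm (by decide)
  · rw [h1] at hm
    exact absurd hm (by decide)
  · rw [h1] at hm
    exact absurd hm (by decide)

end Cfg

end Cfsg.Agent.Lib.Pauli4.Setup
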