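import Mathlib
import Cfsg.Agent.Lib.Pauli4.Bad

/-!
# Elements normalizing an absolutely irreducible `4 ∘ 2^{1+4}` in `GL₄(F)`

Five pairwise anticommuting involutions `g₁, ..., g₅` of `R` are permuted by products of the
elements `g_a - g_b`.
-/

set_option autoImplicit false
set_option linter.unusedSimpArgs false

namespace Cfsg.Agent.Lib.Pauli4.Elements

section Ring

variable {A : Type*} [Ring A] {a b c : A}

/-- Three anticommuting involutions. -/
theorem cyc_all (ha : a * a = 1) (hb : b * b = 1) (hc : c * c = 1) (hab : b * a = -(a * b)) (hac : c * a = -(a * c))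
    (hbc : c * b = -(b * c)) :
    (a - b) * (b - c) * a = b * ((a - b) * (b - c)) ∧ (a - b) * (b - c) * b = c * ((a - b) * (b - c)) ∧
    (a - b) * (b - c) * c = a * ((a - b) * (b - c)) ∧
    (a - b) * (b - c) * ((a - b) * (b - c)) + (a - b) * (b - c) + (a - b) * (b - c) + 1 + 1 + 1 + 1 = 0 := by
  have ha' : ∀ x, a * (a * x) = x := fun x => by rw [← mul_assoc, ha, one_mul]
  have hb' : ∀ x, b * (b * x) = x := fun x => by rw [← mul_assoc, hb, one_mul]
  have hc' : ∀ x, c * (c * x) = x := fun x => by rw [← mul_assoc, hc, one_mul]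
  have hab' : ∀ x, b * (a * x) = -(a * (b * x)) := fun x => by rw [← mul_assoc, hab, neg_mul, mul_assoc]
  have hac' : ∀ x, c * (a * x) = -(a * (c * x)) := fun x => by rw [← mul_assoc, hac, neg_mul, mul_assoc]
  have hbc' : ∀ x, c * (b * x) = -(b * (c * x)) := fun x => by rw [← mul_assoc, hbc, neg_mul, mul_assoc]
  refine ⟨?_, ?_, ?_, ?_⟩ <;>
  · simp only [mul_add, add_mul, mul_sub, sub_mul, mul_assoc, one_mul, mul_one, ha, hb, hc, ha', hb', hc', hab, hac, hbc,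
      hab', hac', hbc', mul_neg, neg_mul, neg_neg]
    abel

/-- The gate `diag(1, 1, 1, -1)`. -/
theorem wgate_all {d : A} (ha : a * a = 1) (hb : b * b = 1) (hc : c * c = 1) (hd : d * d = 1) (hab : b * a = -(a * b)) (hac : c * a = a * c)
    (hbc : c * b = b * c) (hdb : d * b = b * d) (hdc : c * d = -(d * c)) :
    (1 + b + c - b * c) * a = a * c * (1 + b + c - b * c) ∧ (1 + b + c - b * c) * d = d * b * (1 + b + c - b * c) ∧
    (1 + b + c - b * c) * (1 + b + c - b * c) = 1 + 1 + 1 + 1 := by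
  have ha' : ∀ x, a * (a * x) = x := fun x => by rw [← mul_assoc, ha, one_mul]
  have hb' : ∀ x, b * (b * x) = x := fun x => by rw [← mul_assoc, hb, one_mul]
  have hc' : ∀ x, c * (c * x) = x := fun x => by rw [← mul_assoc, hc, one_mul]
  have hd' : ∀ x, d * (d * x) = x := fun x => by rw [← mul_assoc, hd, one_mul]
  have hab' : ∀ x, b * (a * x) = -(a * (b * x)) := fun x => by rw [← mul_assoc, hab, neg_mul, mul_assoc]
  have hac' : ∀ x, c * (a * x) = (a * (c * x)) := fun x => by rw [← mul_assoc, hac, mul_assoc]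
  have hbc' : ∀ x, c * (b * x) = (b * (c * x)) := fun x => by rw [← mul_assoc, hbc, mul_assoc]
  have hdb' : ∀ x, d * (b * x) = b * (d * x) := fun x => by rw [← mul_assoc, hdb, mul_assoc]
  have hdc' : ∀ x, c * (d * x) = -(d * (c * x)) := fun x => by rw [← mul_assoc, hdc, neg_mul, mul_assoc]
  refine ⟨?_, ?_, ?_⟩ <;>
  · simp only [mul_add, add_mul, mul_sub, sub_mul, mul_assoc, one_mul, mul_one, ha, hb, hc, hd, ha', hb', hc', hd', hab, hac, hbc,
      hdb, hdc, hab', hac', hbc', hdb', hdc', mul_neg, neg_mul, neg_neg]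
    abel

/-- Commuting with the element `(a - b) * (b - c)`. -/
theorem cyc_comm {d : A} (ha : d * a = a * d) (hb : d * b = b * d) (hc : d * c = c * d) :
    d * ((a - b) * (b - c)) = (a - b) * (b - c) * d := by
  have h1 : Commute d (a - b) := (show Commute d a from ha).sub_right hb
  have h2 : Commute d (b - c) := (show Commute d b from hb).sub_right hc
  exact (h1.mul_right h2).eq

theorem cyc_anti {d : A} (ha : d * a = -(a * d)) (hb : d * b = -(b * d)) (hc : d * c = -(c * d)) :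
    d * ((a - b) * (b - c)) = (a - b) * (b - c) * d := by
  have h1 : d * (a - b) = -((a - b) * d) := by
    rw [mul_sub, sub_mul, ha, hb]
    abel
  have h2 : d * (b - c) = -((b - c) * d) := by
    rw [mul_sub, sub_mul, hb, hc]
    abel
  calc d * ((a - b) * (b - c)) = (d * (a - b)) * (b - c) := by rw [mul_assoc]
    _ = -((a - b) * (d * (b - c))) := by rw [h1, neg_mul, mul_assoc]
    _ = _ := by rw [h2, mul_neg, neg_neg, mul_assoc]

/-- Five anticommuting involutions in terms of two hyperbolic pairs. -/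
theorem five_all {a₁ a₂ u v a₃ a₄ : A} (h1 : a₁ * a₁ = 1) (h2 : a₂ * a₂ = 1) (h3 : u * u = 1) (h4 : v * v = 1)
    (h5 : a₃ * a₃ = 1) (h6 : a₄ * a₄ = 1)
    (r21 : a₂ * a₁ = -(a₁ * a₂)) (ru1 : u * a₁ = -(a₁ * u)) (ru2 : u * a₂ = -(a₂ * u)) (rv1 : v * a₁ = a₁ * v)
    (rv2 : v * a₂ = a₂ * v) (rvu : v * u = u * v) (r31 : a₃ * a₁ = a₁ * a₃) (r32 : a₃ * a₂ = a₂ * a₃)
    (r3u : a₃ * u = u * a₃) (r3v : a₃ * v = -(v * a₃)) (r41 : a₄ * a₁ = a₁ * a₄) (r42 : a₄ * a₂ = a₂ * a₄)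
    (r4u : a₄ * u = u * a₄) (r4v : a₄ * v = -(v * a₄)) (r43 : a₄ * a₃ = -(a₃ * a₄)) :
    (u * a₃) * (u * a₃) = 1 ∧ (u * a₄) * (u * a₄) = 1 ∧ (u * v) * (u * v) = 1 ∧
    (u * a₃) * a₁ = -(a₁ * (u * a₃)) ∧ (u * a₃) * a₂ = -(a₂ * (u * a₃)) ∧
    (u * a₄) * a₁ = -(a₁ * (u * a₄)) ∧ (u * a₄) * a₂ = -(a₂ * (u * a₄)) ∧
    (u * v) * a₁ = -(a₁ * (u * v)) ∧ (u * v) * a₂ = -(a₂ * (u * v)) ∧
    (u * a₄) * (u * a₃) = -((u * a₃) * (u * a₄)) ∧ (u * v) * (u * a₃) = -((u * a₃) * (u * v)) ∧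
    (u * v) * (u * a₄) = -((u * a₄) * (u * v)) := by
  have h1' : ∀ x, a₁ * (a₁ * x) = x := fun x => by rw [← mul_assoc, h1, one_mul]
  have h2' : ∀ x, a₂ * (a₂ * x) = x := fun x => by rw [← mul_assoc, h2, one_mul]
  have h3' : ∀ x, u * (u * x) = x := fun x => by rw [← mul_assoc, h3, one_mul]
  have h4' : ∀ x, v * (v * x) = x := fun x => by rw [← mul_assoc, h4, one_mul]
  have h5' : ∀ x, a₃ * (a₃ * x) = x := fun x => by rw [← mul_assoc, h5, one_mul]
  have h6' : ∀ x, a₄ * (a₄ * x) = x := fun x => by rw [← mul_assoc, h6, one_mul]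
  have r21' : ∀ x, a₂ * (a₁ * x) = -(a₁ * (a₂ * x)) := fun x => by rw [← mul_assoc, r21, neg_mul, mul_assoc]
  have ru1' : ∀ x, u * (a₁ * x) = -(a₁ * (u * x)) := fun x => by rw [← mul_assoc, ru1, neg_mul, mul_assoc]
  have ru2' : ∀ x, u * (a₂ * x) = -(a₂ * (u * x)) := fun x => by rw [← mul_assoc, ru2, neg_mul, mul_assoc]
  have rv1' : ∀ x, v * (a₁ * x) = a₁ * (v * x) := fun x => by rw [← mul_assoc, rv1, mul_assoc]
  have rv2' : ∀ x, v * (a₂ * x) = a₂ * (v * x) := fun x => by rw [← mul_assoc, rv2, mul_assoc]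
  have rvu' : ∀ x, v * (u * x) = u * (v * x) := fun x => by rw [← mul_assoc, rvu, mul_assoc]
  have r31' : ∀ x, a₃ * (a₁ * x) = a₁ * (a₃ * x) := fun x => by rw [← mul_assoc, r31, mul_assoc]
  have r32' : ∀ x, a₃ * (a₂ * x) = a₂ * (a₃ * x) := fun x => by rw [← mul_assoc, r32, mul_assoc]
  have r3u' : ∀ x, a₃ * (u * x) = u * (a₃ * x) := fun x => by rw [← mul_assoc, r3u, mul_assoc]
  have r3v' : ∀ x, a₃ * (v * x) = -(v * (a₃ * x)) := fun x => by rw [← mul_assoc, r3v, neg_mul, mul_assoc]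
  have r41' : ∀ x, a₄ * (a₁ * x) = a₁ * (a₄ * x) := fun x => by rw [← mul_assoc, r41, mul_assoc]
  have r42' : ∀ x, a₄ * (a₂ * x) = a₂ * (a₄ * x) := fun x => by rw [← mul_assoc, r42, mul_assoc]
  have r4u' : ∀ x, a₄ * (u * x) = u * (a₄ * x) := fun x => by rw [← mul_assoc, r4u, mul_assoc]
  have r4v' : ∀ x, a₄ * (v * x) = -(v * (a₄ * x)) := fun x => by rw [← mul_assoc, r4v, neg_mul, mul_assoc]
  have r43' : ∀ x, a₄ * (a₃ * x) = -(a₃ * (a₄ * x)) := fun x => by rw [← mul_assoc, r43, neg_mul, mul_assoc]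
  refine ⟨?_, ?_, ?_, ?_, ?_, ?_, ?_, ?_, ?_, ?_, ?_, ?_⟩ <;>
  · simp only [mul_assoc, one_mul, mul_one, h1, h2, h3, h4, h5, h6, h1', h2', h3', h4', h5', h6', r21, ru1, ru2, rv1, rv2, rvu,
      r31, r32, r3u, r3v, r41, r42, r4u, r4v, r43, r21', ru1', ru2', rv1', rv2', rvu', r31', r32', r3u', r3v', r41', r42', r4u', r4v',
      r43', mul_neg, neg_mul, neg_neg]

/-- The elements `u = a * b` up to a scalar of square `-1`. -/
theorem cgroup5 {G : Type*} [Group G] {y a b c d e : G} (h1 : y * a = b * y) (h2 : y * b = c * y) (h3 : y * c = d * y)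
    (h4 : y * d = e * y) (h5 : y * e = a * y) : y ^ 5 * a = a * y ^ 5 := by
  have h6 : y * y * y * y * y * a = a * y * y * y * y * y := by
    calc y * y * y * y * y * a = y * y * y * y * (y * a) := by group
      _ = y * y * y * y * (b * y) := by rw [h1]
      _ = y * y * y * (y * b) * y := by group
      _ = y * y * y * (c * y) * y := by rw [h2]
      _ = y * y * (y * c) * y * y := by group
      _ = y * y * (d * y) * y * y := by rw [h3]
      _ = y * (y * d) * y * y * y := by group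
      _ = y * (e * y) * y * y * y := by rw [h4]
      _ = (y * e) * y * y * y * y := by group
      _ = (a * y) * y * y * y * y := by rw [h5]
  have e5 : y ^ 5 = y * y * y * y * y := by
    simp only [pow_succ, pow_zero, one_mul]
  rw [e5, h6]
  group

end Ring

end Cfsg.Agent.Lib.Pauli4.Elements

namespace Cfsg.Agent.Lib.Pauli4.Setup

open Cfsg Cfsg.Geo Matrix Cfsg.Agent.Lib.Asch.SC Cfsg.Agent.Lib.Pauli4.Forward Cfsg.Agent.Lib.Pauli4.Elements
open scoped MatrixGroups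

variable {F : Type*} [Field F]

theorem Cfg.conj_scalar' {R : Subgroup (GL (Fin 4) F)} (u x : GL (Fin 4) F) (hu : u ∈ scalars (Fin 4) F) : x ∈ R ↔ u * x * u⁻¹ ∈ R := by
  have : u * x * u⁻¹ = x := by
    rw [comm_of_mem_scalars hu]
    group
  rw [this]

/-- A matrix anticommuting with an involution has trace zero. -/
theorem trace_zero_of_anti (h2 : (2 : F) ≠ 0) {a M : Mat F} (ha : a * a = 1) (hM : M * a = -(a * M)) :
    Matrix.trace M = 0 := by
  have h1 : Matrix.trace M = -Matrix.trace M := by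
    calc Matrix.trace M = Matrix.trace (M * (a * a)) := by rw [ha, mul_one]
      _ = Matrix.trace ((M * a) * a) := by rw [mul_assoc]
      _ = -Matrix.trace (a * M * a) := by rw [hM, neg_mul, Matrix.trace_neg]
      _ = -Matrix.trace (a * (M * a)) := by rw [mul_assoc]
      _ = -Matrix.trace (M * a * a) := by rw [Matrix.trace_mul_comm a]
      _ = -Matrix.trace M := by rw [mul_assoc, ha, mul_one]
  have h3 : 2 * Matrix.trace M = 0 := by linear_combination h1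
  exact (mul_eq_zero.1 h3).resolve_left h2

theorem half_sq {X : Mat F} {e : F} (he : e * 2 = 1) (hX : X * X + X + X + 1 + 1 + 1 + 1 = 0) :
    (e • X) * (e • X) + e • X + 1 = 0 := by
  have h1 : X * X = -(X + X + 1 + 1 + 1 + 1) := by
    rw [eq_neg_iff_add_eq_zero]
    rw [← hX]
    abel
  have c1 : e - 2 * e * e = 0 := by linear_combination (-e) * he
  have c2 : 1 - 4 * e * e = 0 := by linear_combination (-2 * e - 1) * he
  rw [smul_mul_assoc, mul_smul_comm, smul_smul, h1]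
  have : (e * e) • (-(X + X + 1 + 1 + 1 + 1)) + e • X + 1 = (e - 2 * e * e) • X + (1 - 4 * e * e) • (1 : Mat F) := by
    module
  rw [this, c1, c2, zero_smul, zero_smul, add_zero]

/-- The element `(a - b)(b - c) / 2`. -/
theorem exists_cyc (h2 : (2 : F) ≠ 0) (a b c : GL (Fin 4) F) (ha : (a : Mat F) * a = 1) (hb : (b : Mat F) * b = 1)
    (hc : (c : Mat F) * c = 1) (hab : (b : Mat F) * a = -((a : Mat F) * b)) (hac : (c : Mat F) * a = -((a : Mat F) * c))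
    (hbc : (c : Mat F) * b = -((b : Mat F) * c)) :
    ∃ C : GL (Fin 4) F, (C : Mat F) = (2 : F)⁻¹ • (((a : Mat F) - b) * ((b : Mat F) - c)) ∧ C * a = b * C ∧ C * b = c * C ∧
      C * c = a * C ∧ (C : Mat F) * C + C + 1 = 0 := by
  obtain ⟨h1, h3, h4, h5⟩ := cyc_all ha hb hc hab hac hbc
  have he : (2 : F)⁻¹ * 2 = 1 := inv_mul_cancel₀ h2
  set X : Mat F := ((a : Mat F) - b) * ((b : Mat F) - c) with hX
  set e : F := (2 : F)⁻¹ with he'
  have hq := half_sq he h5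
  have hi1 : (e • X) * (-(e • X) - 1) = 1 := by
    have : (e • X) * (-(e • X) - 1) = 1 - ((e • X) * (e • X) + e • X + 1) := by
      generalize e • X = Y
      noncomm_ring
    rw [this, hq, sub_zero]
  have hi2 : (-(e • X) - 1) * (e • X) = 1 := by
    have : (-(e • X) - 1) * (e • X) = 1 - ((e • X) * (e • X) + e • X + 1) := by
      generalize e • X = Y
      noncomm_ring
    rw [this, hq, sub_zero]
  refine ⟨⟨e • X, -(e • X) - 1, hi1, hi2⟩, rfl, ?_, ?_, ?_, hq⟩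
  · apply Units.ext
    change (e • X) * (a : Mat F) = (b : Mat F) * (e • X)
    rw [smul_mul_assoc, mul_smul_comm, h1]
  · apply Units.ext
    change (e • X) * (b : Mat F) = (c : Mat F) * (e • X)
    rw [smul_mul_assoc, mul_smul_comm, h3]
  · apply Units.ext
    change (e • X) * (c : Mat F) = (a : Mat F) * (e • X)
    rw [smul_mul_assoc, mul_smul_comm, h4]

/-- Relations of `u = i a b` for a hyperbolic pair `a, b`. -/
theorem pair_rel {a b : Mat F} (ha : a * a = 1) (hb : b * b = 1) (hab : b * a = -(a * b)) {i : F} (hi : i * i = -1) :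
    (i • (a * b)) * (i • (a * b)) = 1 ∧ (i • (a * b)) * a = -(a * (i • (a * b))) ∧
      (i • (a * b)) * b = -(b * (i • (a * b))) ∧
      ∀ d : Mat F, d * a = a * d → d * b = b * d → d * (i • (a * b)) = (i • (a * b)) * d := by
  have hb' : ∀ x, b * (b * x) = x := fun x => by rw [← mul_assoc, hb, one_mul]
  have ha' : ∀ x, a * (a * x) = x := fun x => by rw [← mul_assoc, ha, one_mul]
  have hab' : ∀ x, b * (a * x) = -(a * (b * x)) := fun x => by rw [← mul_assoc, hab, neg_mul, mul_assoc]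
  refine ⟨?_, ?_, ?_, ?_⟩
  · rw [smul_mul_assoc, mul_smul_comm, smul_smul, hi]
    simp only [mul_assoc, ha, hb, ha', hb', hab, hab', mul_neg, neg_mul, neg_neg, mul_one, one_mul, neg_smul, one_smul]
  · rw [smul_mul_assoc, mul_smul_comm, ← smul_neg]
    congr 1
    simp only [mul_assoc, ha, hb, ha', hb', hab, hab', mul_neg, neg_mul, neg_neg, mul_one, one_mul]
  · rw [smul_mul_assoc, mul_smul_comm, ← smul_neg]
    congr 1
    simp only [mul_assoc, ha, hb, ha', hb', hab, hab', mul_neg, neg_mul, neg_neg, mul_one, one_mul]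
  · intro d hda hdb
    rw [smul_mul_assoc, mul_smul_comm]
    congr 1
    exact ((show Commute d a from hda).mul_right (show Commute d b from hdb)).eq

/-- Traces of the element `(a - b) (b - c)` times a commuting element. -/
theorem trace_cyc (h2 : (2 : F) ≠ 0) {a b c W : Mat F} (ha : a * a = 1) (hb : b * b = 1) (hab : b * a = -(a * b))
    (hac : c * a = -(a * c)) (hbc : c * b = -(b * c)) (hWa : W * a = a * W) (hWb : W * b = b * W) :
    Matrix.trace ((a - b) * (b - c) * W) = -Matrix.trace W := by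
  have hb' : ∀ x, b * (b * x) = x := fun x => by rw [← mul_assoc, hb, one_mul]
  have ha' : ∀ x, a * (a * x) = x := fun x => by rw [← mul_assoc, ha, one_mul]
  have e1 : (a - b) * (b - c) * W = a * b * W - a * c * W - W + b * c * W := by
    simp only [mul_sub, sub_mul, hb, one_mul]
    abel
  have t1 : Matrix.trace (a * b * W) = 0 := by
    apply trace_zero_of_anti h2 ha
    calc a * b * W * a = a * (b * (W * a)) := by simp only [mul_assoc]
      _ = a * (b * (a * W)) := by rw [hWa]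
      _ = a * ((b * a) * W) := by simp only [mul_assoc]
      _ = -(a * (a * b * W)) := by rw [hab]; simp only [neg_mul, mul_neg, mul_assoc]
  have t2 : Matrix.trace (a * c * W) = 0 := by
    apply trace_zero_of_anti h2 ha
    calc a * c * W * a = a * (c * (W * a)) := by simp only [mul_assoc]
      _ = a * (c * (a * W)) := by rw [hWa]
      _ = a * ((c * a) * W) := by simp only [mul_assoc]
      _ = -(a * (a * c * W)) := by rw [hac]; simp only [neg_mul, mul_neg, mul_assoc]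
  have t3 : Matrix.trace (b * c * W) = 0 := by
    apply trace_zero_of_anti h2 hb
    calc b * c * W * b = b * (c * (W * b)) := by simp only [mul_assoc]
      _ = b * (c * (b * W)) := by rw [hWb]
      _ = b * ((c * b) * W) := by simp only [mul_assoc]
      _ = -(b * (b * c * W)) := by rw [hbc]; simp only [neg_mul, mul_neg, mul_assoc]
  rw [e1, Matrix.trace_add, Matrix.trace_sub, Matrix.trace_sub, t1, t2, t3]
  ring

variable {R : Subgroup (GL (Fin 4) F)} {i : F} {ι t₁ t₂ t₃ t₄ : GL (Fin 4) F}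

/-- The scalars. -/
noncomputable def scal (F : Type*) [Field F] : Fˣ →* GL (Fin 4) F :=
  Units.map (Matrix.scalar (Fin 4) : F →+* Matrix (Fin 4) (Fin 4) F).toMonoidHom

theorem scal_val (c : Fˣ) : ((scal F c : GL (Fin 4) F) : Mat F) = (c : F) • 1 := by
  simp [scal, Matrix.smul_one_eq_diagonal]

theorem scal_mem (c : Fˣ) : scal F c ∈ scalars (Fin 4) F := ⟨c, rfl⟩

theorem mem_normalizer_of_scalars {u : GL (Fin 4) F} (hu : u ∈ scalars (Fin 4) F) : u ∈ subgroupNormalizer R := by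
  change u ∈ Subgroup.normalizer (R : Set (GL (Fin 4) F))
  rw [Subgroup.mem_normalizer_iff]
  intro x
  rw [Cfg.conj_scalar' u x hu]

namespace Cfg

variable (h : Cfg R i ι t₁ t₂ t₃ t₄)
include h

theorem i_ne_zero : i ≠ 0 := by
  rintro rfl
  have h1 := h.ii
  rw [mul_zero] at h1
  exact one_ne_zero (neg_eq_zero.1 h1.symm)

theorem ι_scalar : ι ∈ scalars (Fin 4) F :=
  (mem_scalars_iff ι).2 ⟨Units.mk0 i h.i_ne_zero, h.hι⟩

omit h in
theorem conj_of_itw {y t t' : GL (Fin 4) F} (e : y * t = t' * y) (ht : t' ∈ R) : y * t * y⁻¹ ∈ R := by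
  rw [e]
  simpa using ht

/-- A criterion in terms of generators. -/
theorem mem_normalizer_of_gen {y : GL (Fin 4) F} (h₁ : y * t₁ * y⁻¹ ∈ R) (h₂ : y * t₂ * y⁻¹ ∈ R)
    (h₃ : y * t₃ * y⁻¹ ∈ R) (h₄ : y * t₄ * y⁻¹ ∈ R) : y ∈ subgroupNormalizer R := by
  haveI := h.finite
  have hfwd : ∀ u ∈ R, y * u * y⁻¹ ∈ R := by
    have hle : Subgroup.closure {ι, t₁, t₂, t₃, t₄} ≤ R.comap (MulAut.conj y).toMonoidHom := by
      rw [Subgroup.closure_le]
      rintro z (hz | hz | hz | hz | hz)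
      · rw [hz]
        change y * ι * y⁻¹ ∈ R
        rw [conj_scalar y h.ι_scalar]
        exact h.ιR
      · rw [hz]; exact h₁
      · rw [hz]; exact h₂
      · rw [hz]; exact h₃
      · rw [show z = t₄ from hz]; exact h₄
    rw [h.gen] at hle
    intro u hu
    exact hle hu
  let φ : ↥R → ↥R := fun u => ⟨y * u * y⁻¹, hfwd u u.2⟩
  have hinj : Function.Injective φ := by
    intro u v huv
    have := congrArg Subtype.val huv
    apply Subtype.ext
    simpa [φ] using this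
  have hsurj := Finite.surjective_of_injective hinj
  change y ∈ Subgroup.normalizer (R : Set (GL (Fin 4) F))
  rw [Subgroup.mem_normalizer_iff]
  intro x
  constructor
  · exact hfwd x
  · intro hh
    obtain ⟨w, hw⟩ := hsurj ⟨_, hh⟩
    have := congrArg Subtype.val hw
    have h5 : (w : GL (Fin 4) F) = x := by
      simpa [φ] using this
    rw [← h5]
    exact w.2

/-- Elements in the normalizer from the action on generators. -/
theorem comm_of_gen {y : GL (Fin 4) F} (h₁ : y * t₁ = t₁ * y) (h₂ : y * t₂ = t₂ * y)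
    (h₃ : y * t₃ = t₃ * y) (h₄ : y * t₄ = t₄ * y) : y ∈ scalars (Fin 4) F := by
  have hle : Subgroup.closure {ι, t₁, t₂, t₃, t₄} ≤ Subgroup.centralizer {y} := by
    rw [Subgroup.closure_le]
    rintro z (hz | hz | hz | hz | hz)
    · rw [hz]; exact Cfsg.Agent.Lib.Pauli4.Group.mem_cent.2 (comm_of_mem_scalars h.ι_scalar)
    · rw [hz]; exact Cfsg.Agent.Lib.Pauli4.Group.mem_cent.2 h₁.symm
    · rw [hz]; exact Cfsg.Agent.Lib.Pauli4.Group.mem_cent.2 h₂.symm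
    · rw [hz]; exact Cfsg.Agent.Lib.Pauli4.Group.mem_cent.2 h₃.symm
    · rw [show z = t₄ from hz]; exact Cfsg.Agent.Lib.Pauli4.Group.mem_cent.2 h₄.symm
  rw [h.gen] at hle
  apply mem_scalars_of_comm h.hA
  intro u hu
  exact (Cfsg.Agent.Lib.Pauli4.Group.mem_cent.1 (hle hu)).symm

theorem a₂₁ : (t₂ : Mat F) * t₁ = -((t₁ : Mat F) * t₂) := by rw [h.a₁₂, neg_neg]
theorem a₄₃ : (t₄ : Mat F) * t₃ = -((t₃ : Mat F) * t₄) := by rw [h.a₃₄, neg_neg]

theorem Ya_val : ((ι * t₁ * t₂ : GL (Fin 4) F) : Mat F) = i • ((t₁ : Mat F) * t₂) := by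
  rw [Units.val_mul, Units.val_mul, h.hι, smul_mul_assoc, one_mul, smul_mul_assoc]

theorem Yb_val : ((ι * t₃ * t₄ : GL (Fin 4) F) : Mat F) = i • ((t₃ : Mat F) * t₄) := by
  rw [Units.val_mul, Units.val_mul, h.hι, smul_mul_assoc, one_mul, smul_mul_assoc]

/-- An involution outside the centre, and its trace. -/
theorem trace_t₂ : Matrix.trace (t₂ : Mat F) = 0 :=
  trace_zero_of_anti h.two h.s₁ (by rw [h.a₂₁])

/-- The gate. -/
theorem exists_gate : ∃ w₀ ∈ subgroupNormalizer R, (w₀ : Mat F) * w₀ = 1 ∧ Matrix.trace (w₀ : Mat F) = 2 := by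
  have h2 := h.two
  set a := (t₁ : Mat F) with ha
  set b := (t₂ : Mat F) with hb
  set c := (t₄ : Mat F) with hc
  set d := (t₃ : Mat F) with hd
  have hbaa : b * a = -(a * b) := h.a₂₁
  have hdc : c * d = -(d * c) := h.a₄₃
  have hca : c * a = a * c := h.c₁₄.symm
  have hcb : c * b = b * c := h.c₂₄.symm
  have hdb : d * b = b * d := h.c₂₃.symm
  obtain ⟨e1, e2, e3⟩ := wgate_all h.s₁ h.s₂ h.s₄ h.s₃ hbaa hca hcb hdb hdc
  set W : Mat F := 1 + b + c - b * c with hW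
  have hWb : W * b = b * W := by
    have : Commute W b := by
      have hbc' : Commute b c := (show Commute c b from hcb).symm
      exact (((Commute.one_left b).add_left (Commute.refl b)).add_left hbc'.symm).sub_left ((Commute.refl b).mul_left hbc'.symm)
    exact this.eq
  have hWc : W * c = c * W := by
    have : Commute W c := by
      have hbc' : Commute b c := (show Commute c b from hcb).symm
      exact (((Commute.one_left c).add_left hbc').add_left (Commute.refl c)).sub_left (hbc'.mul_left (Commute.refl c))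
    exact this.eq
  set e : F := (2 : F)⁻¹ with he'
  have he : e * 2 = 1 := inv_mul_cancel₀ h2
  have hq : (e • W) * (e • W) = 1 := by
    rw [smul_mul_assoc, mul_smul_comm, smul_smul, e3]
    have c2 : 4 * e * e = 1 := by linear_combination (2 * e + 1) * he
    have : (e * e) • (1 + 1 + 1 + 1 : Mat F) = (4 * e * e) • (1 : Mat F) := by module
    rw [this, c2, one_smul]
  let w₀ : GL (Fin 4) F := ⟨e • W, e • W, hq, hq⟩
  have hw : (w₀ : Mat F) = e • W := rfl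
  have hi₁ : w₀ * t₁ = (t₁ * t₄) * w₀ := by
    apply Units.ext
    rw [Units.val_mul, Units.val_mul, Units.val_mul, hw, smul_mul_assoc, mul_smul_comm]
    rw [← ha, ← hc, e1]
  have hi₃ : w₀ * t₃ = (t₃ * t₂) * w₀ := by
    apply Units.ext
    rw [Units.val_mul, Units.val_mul, Units.val_mul, hw, smul_mul_assoc, mul_smul_comm]
    rw [← hd, ← hb, e2]
  have hi₂ : w₀ * t₂ = t₂ * w₀ := by
    apply Units.ext
    rw [Units.val_mul, Units.val_mul, hw, smul_mul_assoc, mul_smul_comm, ← hb, hWb]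
  have hi₄ : w₀ * t₄ = t₄ * w₀ := by
    apply Units.ext
    rw [Units.val_mul, Units.val_mul, hw, smul_mul_assoc, mul_smul_comm, ← hc, hWc]
  refine ⟨w₀, ?_, hq, ?_⟩
  · exact h.mem_normalizer_of_gen (conj_of_itw hi₁ (R.mul_mem h.t₁R h.t₄R)) (conj_of_itw hi₂ h.t₂R)
      (conj_of_itw hi₃ (R.mul_mem h.t₃R h.t₂R)) (conj_of_itw hi₄ h.t₄R)
  · have t1 : Matrix.trace b = 0 := h.trace_t₂
    have t2 : Matrix.trace c = 0 := trace_zero_of_anti h2 h.s₃ (by
      change c * d = -(d * c)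
      exact hdc)
    have t3 : Matrix.trace (b * c) = 0 := by
      apply trace_zero_of_anti h2 h.s₁
      rw [← ha]
      calc b * c * a = b * (c * a) := by rw [mul_assoc]
        _ = b * (a * c) := by rw [hca]
        _ = (b * a) * c := by rw [mul_assoc]
        _ = -(a * (b * c)) := by rw [hbaa, neg_mul, mul_assoc]
    rw [hw, Matrix.trace_smul, hW, Matrix.trace_sub, Matrix.trace_add, Matrix.trace_add, t1, t2, t3, Matrix.trace_one,
      Fintype.card_fin, smul_eq_mul]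
    push_cast
    linear_combination (2 : F) * he

omit h in
theorem cyc_val_comm {C : GL (Fin 4) F} {e : F} {a b c d : Mat F} (hC : (C : Mat F) = e • ((a - b) * (b - c)))
    (da : d * a = a * d) (db : d * b = b * d) (dc : d * c = c * d) : (C : Mat F) * d = d * C := by
  rw [hC, smul_mul_assoc, mul_smul_comm, cyc_comm da db dc]

omit h in
theorem cyc_val_anti {C : GL (Fin 4) F} {e : F} {a b c d : Mat F} (hC : (C : Mat F) = e • ((a - b) * (b - c)))
    (da : d * a = -(a * d)) (db : d * b = -(b * d)) (dc : d * c = -(c * d)) : (C : Mat F) * d = d * C := by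
  rw [hC, smul_mul_assoc, mul_smul_comm, cyc_anti da db dc]

omit h in
theorem cube_of_q {X : Mat F} (q : X * X + X + 1 = 0) : X ^ 3 = 1 := by
  have : X ^ 3 - 1 = (X - 1) * (X * X + X + 1) := by noncomm_ring
  rw [q, mul_zero] at this
  exact sub_eq_zero.1 this

omit h in
theorem gl_cube_of_q {C : GL (Fin 4) F} (q : (C : Mat F) * C + C + 1 = 0) : C ^ 3 = 1 := by
  apply Units.ext
  rw [Units.val_pow_eq_pow_val, cube_of_q q, Units.val_one]

/-- Elements of order three. -/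
theorem exists_three : ∃ y₁ y₂ : GL (Fin 4) F, y₁ ∈ subgroupNormalizer R ∧ y₂ ∈ subgroupNormalizer R ∧
    y₁ ^ 3 = 1 ∧ y₂ ^ 3 = 1 ∧ (y₂ : Mat F) * y₂ + y₂ + 1 = 0 ∧ Matrix.trace (y₂ : Mat F) = -2 ∧
    Matrix.trace (y₁ : Mat F) = 1 := by
  have h2 := h.two
  set Ya : GL (Fin 4) F := ι * t₁ * t₂ with hYa
  set Yb : GL (Fin 4) F := ι * t₃ * t₄ with hYb
  have YaR : Ya ∈ R := R.mul_mem (R.mul_mem h.ιR h.t₁R) h.t₂R
  have YbR : Yb ∈ R := R.mul_mem (R.mul_mem h.ιR h.t₃R) h.t₄R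
  have vYa : (Ya : Mat F) = i • ((t₁ : Mat F) * t₂) := h.Ya_val
  have vYb : (Yb : Mat F) = i • ((t₃ : Mat F) * t₄) := h.Yb_val
  obtain ⟨ua, ua₁, ua₂, ud⟩ := pair_rel h.s₁ h.s₂ h.a₂₁ h.ii
  obtain ⟨vb, vb₃, vb₄, vd⟩ := pair_rel h.s₃ h.s₄ h.a₄₃ h.ii
  rw [← vYa] at ua ua₁ ua₂ ud
  rw [← vYb] at vb vb₃ vb₄ vd
  obtain ⟨ω, vω, ω₁, ω₂, ω₃, ωq⟩ := exists_cyc h2 t₁ t₂ Ya h.s₁ h.s₂ ua h.a₂₁ ua₁ ua₂
  obtain ⟨ω', vω', ω'₁, ω'₂, ω'₃, ω'q⟩ := exists_cyc h2 t₃ t₄ Yb h.s₃ h.s₄ vb h.a₄₃ vb₃ vb₄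
  have c31 : (t₃ : Mat F) * t₁ = (t₁ : Mat F) * t₃ := h.c₁₃.symm
  have c41 : (t₄ : Mat F) * t₁ = (t₁ : Mat F) * t₄ := h.c₁₄.symm
  have c32 : (t₃ : Mat F) * t₂ = (t₂ : Mat F) * t₃ := h.c₂₃.symm
  have c42 : (t₄ : Mat F) * t₂ = (t₂ : Mat F) * t₄ := h.c₂₄.symm
  have c3a : (t₃ : Mat F) * Ya = (Ya : Mat F) * t₃ := ud _ c31 c32
  have c4a : (t₄ : Mat F) * Ya = (Ya : Mat F) * t₄ := ud _ c41 c42
  have c1b : (t₁ : Mat F) * Yb = (Yb : Mat F) * t₁ := vd _ h.c₁₃ h.c₁₄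
  have c2b : (t₂ : Mat F) * Yb = (Yb : Mat F) * t₂ := vd _ h.c₂₃ h.c₂₄
  have cba : (Yb : Mat F) * Ya = (Ya : Mat F) * Yb := ud _ c1b.symm c2b.symm
  have cab : (Ya : Mat F) * Yb = (Yb : Mat F) * Ya := cba.symm
  have wt₃ : (ω : Mat F) * t₃ = (t₃ : Mat F) * ω := cyc_val_comm vω c31 c32 c3a
  have wt₄ : (ω : Mat F) * t₄ = (t₄ : Mat F) * ω := cyc_val_comm vω c41 c42 c4a
  have w't₁ : (ω' : Mat F) * t₁ = (t₁ : Mat F) * ω' := cyc_val_comm vω' h.c₁₃ h.c₁₄ c1b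
  have w't₂ : (ω' : Mat F) * t₂ = (t₂ : Mat F) * ω' := cyc_val_comm vω' h.c₂₃ h.c₂₄ c2b
  have w'Ya : (ω' : Mat F) * Ya = (Ya : Mat F) * ω' := cyc_val_comm vω' c3a.symm c4a.symm cab
  have hcomm : (ω' : Mat F) * ω = (ω : Mat F) * ω' := by
    rw [vω, mul_smul_comm, smul_mul_assoc]
    congr 1
    exact cyc_comm w't₁ w't₂ w'Ya
  have ωN : ω ∈ subgroupNormalizer R :=
    h.mem_normalizer_of_gen (conj_of_itw ω₁ h.t₂R) (conj_of_itw ω₂ YaR)
      (conj_of_itw (Units.ext (by rw [Units.val_mul, Units.val_mul, wt₃])) h.t₃R)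
      (conj_of_itw (Units.ext (by rw [Units.val_mul, Units.val_mul, wt₄])) h.t₄R)
  have ω'N : ω' ∈ subgroupNormalizer R :=
    h.mem_normalizer_of_gen
      (conj_of_itw (Units.ext (by rw [Units.val_mul, Units.val_mul, w't₁])) h.t₁R)
      (conj_of_itw (Units.ext (by rw [Units.val_mul, Units.val_mul, w't₂])) h.t₂R)
      (conj_of_itw ω'₁ h.t₄R) (conj_of_itw ω'₂ YbR)
  have hcg : Commute ω ω' := Units.ext (by rw [Units.val_mul, Units.val_mul, hcomm])
  have he : (2 : F)⁻¹ * 2 = 1 := inv_mul_cancel₀ h2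
  have htr : ∀ {a b c W : Mat F}, a * a = 1 → b * b = 1 → b * a = -(a * b) → c * a = -(a * c) → c * b = -(b * c) →
      W * a = a * W → W * b = b * W → Matrix.trace ((2 : F)⁻¹ • ((a - b) * (b - c)) * W) = -(2 : F)⁻¹ * Matrix.trace W := by
    intro a b c W h1 h3 h4 h5 h6 h7 h8
    rw [smul_mul_assoc, Matrix.trace_smul, trace_cyc h2 h1 h3 h4 h5 h6 h7 h8, smul_eq_mul]
    ring
  have tr4 : Matrix.trace (1 : Mat F) = 4 := by
    rw [Matrix.trace_one, Fintype.card_fin]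
    norm_num
  have trw' : Matrix.trace (ω' : Mat F) = -2 := by
    have h1 := htr (W := 1) h.s₃ h.s₄ h.a₄₃ vb₃ vb₄ (by simp) (by simp)
    rw [mul_one, ← vω', tr4] at h1
    rw [h1]
    linear_combination (-2 : F) * he
  have trw : Matrix.trace (ω : Mat F) = -2 := by
    have h1 := htr (W := 1) h.s₁ h.s₂ h.a₂₁ ua₁ ua₂ (by simp) (by simp)
    rw [mul_one, ← vω, tr4] at h1
    rw [h1]
    linear_combination (-2 : F) * he
  refine ⟨ω * ω', ω, Subgroup.mul_mem _ ωN ω'N, ωN, ?_, gl_cube_of_q ωq, ωq, trw, ?_⟩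
  · rw [hcg.mul_pow, gl_cube_of_q ωq, gl_cube_of_q ω'q, one_mul]
  · rw [Units.val_mul]
    have h1 := htr (W := (ω' : Mat F)) h.s₁ h.s₂ h.a₂₁ ua₁ ua₂ w't₁ w't₂
    rw [← vω, trw'] at h1
    rw [h1]
    linear_combination he

/-- Elements of order five. -/
theorem exists_five (hroot : ∀ κ : Fˣ, ∃ c : Fˣ, c ^ 5 = κ) :
    ∃ y ∈ subgroupNormalizer R, y ^ 5 = 1 ∧ y ≠ 1 := by
  have h2 := h.two
  set Ya : GL (Fin 4) F := ι * t₁ * t₂ with hYa
  set Yb : GL (Fin 4) F := ι * t₃ * t₄ with hYb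
  have YaR : Ya ∈ R := R.mul_mem (R.mul_mem h.ιR h.t₁R) h.t₂R
  have YbR : Yb ∈ R := R.mul_mem (R.mul_mem h.ιR h.t₃R) h.t₄R
  have vYa : (Ya : Mat F) = i • ((t₁ : Mat F) * t₂) := h.Ya_val
  have vYb : (Yb : Mat F) = i • ((t₃ : Mat F) * t₄) := h.Yb_val
  obtain ⟨ua, ua₁, ua₂, ud⟩ := pair_rel h.s₁ h.s₂ h.a₂₁ h.ii
  obtain ⟨vb, vb₃, vb₄, vd⟩ := pair_rel h.s₃ h.s₄ h.a₄₃ h.ii
  rw [← vYa] at ua ua₁ ua₂ ud
  rw [← vYb] at vb vb₃ vb₄ vd
  have c31 : (t₃ : Mat F) * t₁ = (t₁ : Mat F) * t₃ := h.c₁₃.symm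
  have c41 : (t₄ : Mat F) * t₁ = (t₁ : Mat F) * t₄ := h.c₁₄.symm
  have c32 : (t₃ : Mat F) * t₂ = (t₂ : Mat F) * t₃ := h.c₂₃.symm
  have c42 : (t₄ : Mat F) * t₂ = (t₂ : Mat F) * t₄ := h.c₂₄.symm
  have c3a : (t₃ : Mat F) * Ya = (Ya : Mat F) * t₃ := ud _ c31 c32
  have c4a : (t₄ : Mat F) * Ya = (Ya : Mat F) * t₄ := ud _ c41 c42
  have c1b : (t₁ : Mat F) * Yb = (Yb : Mat F) * t₁ := vd _ h.c₁₃ h.c₁₄
  have c2b : (t₂ : Mat F) * Yb = (Yb : Mat F) * t₂ := vd _ h.c₂₃ h.c₂₄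
  have cba : (Yb : Mat F) * Ya = (Ya : Mat F) * Yb := ud _ c1b.symm c2b.symm
  obtain ⟨g33, g44, g55, g31, g32, g41, g42, g51, g52, g43, g53, g54⟩ :=
    five_all h.s₁ h.s₂ ua vb h.s₃ h.s₄ h.a₂₁ ua₁ ua₂ c1b.symm c2b.symm cba c31 c32 c3a (by rw [vb₃, neg_neg]) c41 c42 c4a (by rw [vb₄, neg_neg]) h.a₄₃
  set g₃ : GL (Fin 4) F := Ya * t₃ with hg₃
  set g₄ : GL (Fin 4) F := Ya * t₄ with hg₄
  set g₅ : GL (Fin 4) F := Ya * Yb with hg₅
  have vg₃ : (g₃ : Mat F) = (Ya : Mat F) * t₃ := Units.val_mul _ _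
  have vg₄ : (g₄ : Mat F) = (Ya : Mat F) * t₄ := Units.val_mul _ _
  have vg₅ : (g₅ : Mat F) = (Ya : Mat F) * Yb := Units.val_mul _ _
  rw [← vg₃] at g33 g31 g32 g43 g53
  rw [← vg₄] at g44 g41 g42 g43 g54
  rw [← vg₅] at g55 g51 g52 g53 g54
  have g₃R : g₃ ∈ R := R.mul_mem YaR h.t₃R
  have g₄R : g₄ ∈ R := R.mul_mem YaR h.t₄R
  have g₅R : g₅ ∈ R := R.mul_mem YaR YbR
  obtain ⟨C₁, vC₁, C₁₁, C₁₂, C₁₃, -⟩ := exists_cyc h2 t₁ t₂ g₃ h.s₁ h.s₂ g33 h.a₂₁ g31 g32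
  obtain ⟨C₂, vC₂, C₂₃, C₂₄, C₂₅, -⟩ := exists_cyc h2 g₃ g₄ g₅ g33 g44 g55 g43 g53 g54
  have neg_of : ∀ {a b : Mat F}, b * a = -(a * b) → a * b = -(b * a) := by
    intro a b h5
    rw [h5, neg_neg]
  have C₁₄ : C₁ * g₄ = g₄ * C₁ := Units.ext (by
    rw [Units.val_mul, Units.val_mul]
    exact cyc_val_anti vC₁ g41 g42 g43)
  have C₁₅ : C₁ * g₅ = g₅ * C₁ := Units.ext (by
    rw [Units.val_mul, Units.val_mul]
    exact cyc_val_anti vC₁ g51 g52 g53)
  have C₂₁ : C₂ * t₁ = t₁ * C₂ := Units.ext (by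
    rw [Units.val_mul, Units.val_mul]
    exact cyc_val_anti vC₂ (neg_of g31) (neg_of g41) (neg_of g51))
  have C₂₂ : C₂ * t₂ = t₂ * C₂ := Units.ext (by
    rw [Units.val_mul, Units.val_mul]
    exact cyc_val_anti vC₂ (neg_of g32) (neg_of g42) (neg_of g52))
  set y₀ : GL (Fin 4) F := C₁ * C₂ with hy₀
  have i₁ : y₀ * t₁ = t₂ * y₀ := by
    calc C₁ * C₂ * t₁ = C₁ * (C₂ * t₁) := by group
      _ = (C₁ * t₁) * C₂ := by rw [C₂₁]; group
      _ = t₂ * (C₁ * C₂) := by rw [C₁₁]; group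
  have i₂ : y₀ * t₂ = g₃ * y₀ := by
    calc C₁ * C₂ * t₂ = C₁ * (C₂ * t₂) := by group
      _ = (C₁ * t₂) * C₂ := by rw [C₂₂]; group
      _ = g₃ * (C₁ * C₂) := by rw [C₁₂]; group
  have i₃ : y₀ * g₃ = g₄ * y₀ := by
    calc C₁ * C₂ * g₃ = C₁ * (C₂ * g₃) := by group
      _ = (C₁ * g₄) * C₂ := by rw [C₂₃]; group
      _ = g₄ * (C₁ * C₂) := by rw [C₁₄]; group
  have i₄ : y₀ * g₄ = g₅ * y₀ := by
    calc C₁ * C₂ * g₄ = C₁ * (C₂ * g₄) := by group
      _ = (C₁ * g₅) * C₂ := by rw [C₂₄]; group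
      _ = g₅ * (C₁ * C₂) := by rw [C₁₅]; group
  have i₅ : y₀ * g₅ = t₁ * y₀ := by
    calc C₁ * C₂ * g₅ = C₁ * (C₂ * g₅) := by group
      _ = (C₁ * g₃) * C₂ := by rw [C₂₅]; group
      _ = t₁ * (C₁ * C₂) := by rw [C₁₃]; group
  -- `t₃` and `t₄` in terms of the `g`
  have YaYa : Ya * Ya = 1 := Units.ext (by rw [Units.val_mul, ua, Units.val_one])
  have et₃ : t₃ = Ya * g₃ := by
    rw [hg₃, ← mul_assoc, YaYa, one_mul]
  have et₄ : t₄ = Ya * g₄ := by
    rw [hg₄, ← mul_assoc, YaYa, one_mul]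
  have hιy : y₀ * ι = ι * y₀ := (comm_of_mem_scalars h.ι_scalar).symm
  -- normalizer
  have hy₀N : y₀ ∈ subgroupNormalizer R := by
    have hconj : ∀ {a b : GL (Fin 4) F}, y₀ * a = b * y₀ → y₀ * a * y₀⁻¹ = b := by
      intro a b h5
      rw [h5]
      group
    have hYa' : y₀ * Ya * y₀⁻¹ ∈ R := by
      have : y₀ * Ya * y₀⁻¹ = ι * t₂ * g₃ := by
        rw [hYa]
        calc y₀ * (ι * t₁ * t₂) * y₀⁻¹ = (y₀ * ι * y₀⁻¹) * (y₀ * t₁ * y₀⁻¹) * (y₀ * t₂ * y₀⁻¹) := by group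
          _ = _ := by rw [hconj hιy, hconj i₁, hconj i₂]
      rw [this]
      exact R.mul_mem (R.mul_mem h.ιR h.t₂R) g₃R
    apply h.mem_normalizer_of_gen (conj_of_itw i₁ h.t₂R) (conj_of_itw i₂ g₃R)
    · have : y₀ * t₃ * y₀⁻¹ = (y₀ * Ya * y₀⁻¹) * g₄ := by
        rw [et₃]
        calc y₀ * (Ya * g₃) * y₀⁻¹ = (y₀ * Ya * y₀⁻¹) * (y₀ * g₃ * y₀⁻¹) := by group
          _ = _ := by rw [hconj i₃]
      rw [this]
      exact R.mul_mem hYa' g₄R
    · have : y₀ * t₄ * y₀⁻¹ = (y₀ * Ya * y₀⁻¹) * g₅ := by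
        rw [et₄]
        calc y₀ * (Ya * g₄) * y₀⁻¹ = (y₀ * Ya * y₀⁻¹) * (y₀ * g₄ * y₀⁻¹) := by group
          _ = _ := by rw [hconj i₄]
      rw [this]
      exact R.mul_mem hYa' g₅R
  -- the fifth power is scalar
  have p₁ : y₀ ^ 5 * t₁ = t₁ * y₀ ^ 5 := cgroup5 i₁ i₂ i₃ i₄ i₅
  have p₂ : y₀ ^ 5 * t₂ = t₂ * y₀ ^ 5 := cgroup5 i₂ i₃ i₄ i₅ i₁
  have p₃' : y₀ ^ 5 * g₃ = g₃ * y₀ ^ 5 := cgroup5 i₃ i₄ i₅ i₁ i₂
  have p₄' : y₀ ^ 5 * g₄ = g₄ * y₀ ^ 5 := cgroup5 i₄ i₅ i₁ i₂ i₃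
  have pι : y₀ ^ 5 * ι = ι * y₀ ^ 5 := (comm_of_mem_scalars h.ι_scalar).symm
  have pYa : y₀ ^ 5 * Ya = Ya * y₀ ^ 5 := by
    have h5 := (show Commute (y₀ ^ 5) ι from pι).mul_right (show Commute (y₀ ^ 5) t₁ from p₁) |>.mul_right (show Commute (y₀ ^ 5) t₂ from p₂)
    exact h5.eq
  have p₃ : y₀ ^ 5 * t₃ = t₃ * y₀ ^ 5 := by
    rw [et₃]
    exact ((show Commute (y₀ ^ 5) Ya from pYa).mul_right (show Commute (y₀ ^ 5) g₃ from p₃')).eq
  have p₄ : y₀ ^ 5 * t₄ = t₄ * y₀ ^ 5 := by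
    rw [et₄]
    exact ((show Commute (y₀ ^ 5) Ya from pYa).mul_right (show Commute (y₀ ^ 5) g₄ from p₄')).eq
  have hsc := h.comm_of_gen p₁ p₂ p₃ p₄
  obtain ⟨κ, hκ⟩ := hsc
  obtain ⟨c, hc⟩ := hroot κ⁻¹
  have hκ' : y₀ ^ 5 = scal F κ := hκ.symm
  refine ⟨scal F c * y₀, Subgroup.mul_mem _ (mem_normalizer_of_scalars (scal_mem c)) hy₀N, ?_, ?_⟩
  · have hcg : Commute (scal F c) y₀ := comm_of_mem_scalars (scal_mem c)
    rw [hcg.mul_pow, ← map_pow, hc, hκ', ← map_mul, inv_mul_cancel, map_one]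
  · intro h1
    have h3 : y₀ = scal F c⁻¹ := by
      rw [map_inv]
      exact eq_inv_of_mul_eq_one_right h1
    have h4 : y₀ * t₁ = t₁ * y₀ := by
      rw [h3]
      exact comm_of_mem_scalars (scal_mem c⁻¹)
    rw [i₁] at h4
    have h5 : t₂ = t₁ := mul_right_cancel h4
    have h6 := h.a₂₁
    rw [h5, h.s₁] at h6
    have h7 := congrFun (congrFun h6 0) 0
    simp only [Matrix.one_apply_eq, Matrix.neg_apply] at h7
    exact h2 (by linear_combination h7)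

end Cfg

end Cfsg.Agent.Lib.Pauli4.Setup
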