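import Mathlib
import Cfsg.Agent.Lib.ElusL.Cyc
import Cfsg.Agent.Lib.ElusL.Flag
import Cfsg.Agent.Lib.Pauli4.Forward

/-!
# Elements of order five in `SL₄(p)` when `p` has order four modulo five
-/

set_option autoImplicit false
set_option linter.unusedSimpArgs false

namespace Cfsg.Agent.Lib.Pauli4.Five

open Cfsg Cfsg.Geo Matrix Module Polynomial
open Cfsg.Agent.Lib.Pauli4.Forward Cfsg.Agent.Lib.Pauli4.Setup
open Cfsg.Agent.Lib.ElusL.Cyc Cfsg.Agent.Lib.ElusL.Basic
open scoped MatrixGroups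

section Group

variable {G : Type*} [Group G] [Finite G] {q : ℕ} [Fact q.Prime]

/-- If elements of order dividing `q` commuting with a non-trivial one `z` are powers of `z`, then
all elements of order `q` generate conjugate subgroups. -/
theorem exists_conj_power (H : ∀ w z : G, w * z = z * w → w ^ q = 1 → z ^ q = 1 → z ≠ 1 → w ∈ Subgroup.zpowers z)
    (a b : G) (ha : a ^ q = 1) (hb : b ^ q = 1) (hb1 : b ≠ 1) : ∃ h : G, ∃ k : ℤ, h * a * h⁻¹ = b ^ k := by
  have hq : q.Prime := Fact.out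
  have hpg : ∀ c : G, c ^ q = 1 → IsPGroup q (Subgroup.zpowers c) := by
    intro c hc
    have h1 : orderOf c ∣ q ^ 1 := by
      rw [pow_one]
      exact orderOf_dvd_of_pow_eq_one hc
    obtain ⟨n, -, hn⟩ := (Nat.dvd_prime_pow hq).1 h1
    exact IsPGroup.of_card (n := n) (by rw [Nat.card_zpowers, hn])
  obtain ⟨Pa, hPa⟩ := (hpg a ha).exists_le_sylow
  obtain ⟨Pb, hPb⟩ := (hpg b hb).exists_le_sylow
  obtain ⟨h, hh⟩ := MulAction.exists_smul_eq G Pa Pb
  have haP : a ∈ (Pa : Subgroup G) := hPa (Subgroup.mem_zpowers a)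
  have hbP : b ∈ (Pb : Subgroup G) := hPb (Subgroup.mem_zpowers b)
  have ha'P : h * a * h⁻¹ ∈ (Pb : Subgroup G) := by
    rw [← hh, Sylow.coe_subgroup_smul]
    have := Subgroup.smul_mem_pointwise_smul a (MulAut.conj h) (Pa : Subgroup G) haP
    simpa [MulAut.smul_def] using this
  -- a central element of order `q` of `Pb`
  have hpb : IsPGroup q (Pb : Subgroup G) := Pb.isPGroup'
  haveI hnt : Nontrivial (Pb : Subgroup G) := by
    refine ⟨⟨⟨b, hbP⟩, 1, ?_⟩⟩
    intro h5
    exact hb1 (congrArg Subtype.val h5)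
  haveI hcn := hpb.center_nontrivial
  have hcp : IsPGroup q (Subgroup.center (Pb : Subgroup G)) := hpb.to_subgroup _
  obtain ⟨n, hn0, hn⟩ := hcp.nontrivial_iff_card.1 hcn
  have hdvd : q ∣ Nat.card (Subgroup.center (Pb : Subgroup G)) := by
    rw [hn]
    exact dvd_pow_self q hn0.ne'
  obtain ⟨z, hz⟩ := exists_prime_orderOf_dvd_card' q hdvd
  have hzval : orderOf (((z : (Pb : Subgroup G)) : G)) = q := by
    rw [Subgroup.orderOf_coe, Subgroup.orderOf_coe]
    exact hz
  set z₀ : G := ((z : (Pb : Subgroup G)) : G) with hz₀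
  have hz5 : z₀ ^ q = 1 := by
    rw [← hzval]
    exact pow_orderOf_eq_one z₀
  have hz1 : z₀ ≠ 1 := by
    intro h5
    rw [h5, orderOf_one] at hzval
    exact hq.one_lt.ne hzval
  have hzc : ∀ c ∈ (Pb : Subgroup G), c * z₀ = z₀ * c := by
    intro c hc
    have h5 := Subgroup.mem_center_iff.1 z.2 ⟨c, hc⟩
    exact congrArg Subtype.val h5
  have ha'5 : (h * a * h⁻¹) ^ q = 1 := by
    rw [conj_pow, ha]
    group
  have h1 := H _ z₀ (hzc _ ha'P) ha'5 hz5 hz1
  have h2 := H b z₀ (hzc _ hbP) hb hz5 hz1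
  obtain ⟨m, hm⟩ := Subgroup.mem_zpowers_iff.1 h1
  obtain ⟨n', hn'⟩ := Subgroup.mem_zpowers_iff.1 h2
  have hcomm : (h * a * h⁻¹) * b = b * (h * a * h⁻¹) := by
    rw [← hm, ← hn']
    exact (Commute.zpow_zpow_self z₀ m n').eq
  obtain ⟨k, hk⟩ := Subgroup.mem_zpowers_iff.1 (H _ b hcomm ha'5 hb hb1)
  exact ⟨h, k, hk.symm⟩

end Group

section Field

variable {F : Type*} [Field F] [Fintype F] {p : ℕ}

theorem aeval_toLin (T : Mat F) (P : F[X]) :
    Polynomial.aeval (Matrix.toLinAlgEquiv' T) P = Matrix.toLinAlgEquiv' (Polynomial.aeval T P) :=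
  Polynomial.aeval_algHom_apply (Matrix.toLinAlgEquiv' : Mat F ≃ₐ[F] _).toAlgHom T P

/-- The cyclotomic relation for elements of order five. -/
theorem phi5 (hF : Fintype.card F = p) (hp5 : ((5 : ℕ) : F) ≠ 0) (hord : orderOf (p : ZMod 5) = 4) {T : Mat F}
    (hT : T ^ 5 = 1) (hT1 : T ≠ 1) : ∑ k ∈ Finset.range 5, T ^ k = 0 := by
  have h5 : Nat.Prime 5 := by norm_num
  have hnd : ¬ 5 ∣ p := by
    intro h
    have h0 : (p : ZMod 5) = 0 := (ZMod.natCast_eq_zero_iff p 5).2 h
    rw [h0, orderOf_eq_zero_iff.2] at hord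
    · omega
    · intro hh
      exact absurd ((isOfFinOrder_iff_pow_eq_one.1 hh)) (by
        rintro ⟨n, hn, hn2⟩
        rw [zero_pow hn.ne'] at hn2
        exact absurd hn2 (by decide))
  let L : End F (Fin 4 → F) := Matrix.toLinAlgEquiv' T
  have hinj : ∀ P : F[X], Polynomial.aeval L P = 0 → Polynomial.aeval T P = 0 := by
    intro P hP
    have h1 : Matrix.toLinAlgEquiv' (Polynomial.aeval T P) = 0 := by
      rw [← aeval_toLin]
      exact hP
    exact (Matrix.toLinAlgEquiv' : Mat F ≃ₐ[F] _).map_eq_zero_iff.1 h1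
  have hprod : Polynomial.aeval L ((X - 1) * Phi F 5 : F[X]) = 0 := by
    rw [Phi_mul]
    simp only [L]
    rw [aeval_toLin]
    simp [hT]
  have htop : Inv L ⊤ := fun _ _ => trivial
  have hsplit := finrank_split (isCoprime_Phi hp5) hprod htop
  have hdvd : 4 ∣ finrank F (⊤ ⊓ LinearMap.ker (Polynomial.aeval L (Phi F 5)) : Submodule F (Fin 4 → F)) := by
    apply Cfsg.Agent.Lib.ElusL.Flag.dvd_finrank_inf (Phi_ne_zero h5) _ htop
    intro g hg hgd
    rw [natDegree_factor hF h5 hp5 hnd hg hgd, hord]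
  rw [top_inf_eq] at hdvd
  rw [top_inf_eq, top_inf_eq, finrank_top, finrank_fin_fun] at hsplit
  have hcases : finrank F (LinearMap.ker (Polynomial.aeval L (Phi F 5))) = 4 ∨
      finrank F (LinearMap.ker (Polynomial.aeval L (Phi F 5))) = 0 := by omega
  rcases hcases with h | h
  · have h1 : LinearMap.ker (Polynomial.aeval L (Phi F 5)) = ⊤ :=
      Submodule.eq_top_of_finrank_eq (by rw [h, finrank_fin_fun])
    have h2 := hinj _ (LinearMap.ker_eq_top.1 h1)
    simpa [Phi] using h2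
  · exfalso
    have h0 : finrank F (LinearMap.ker (Polynomial.aeval L (X - 1 : F[X]))) = 4 := by omega
    have h1 : LinearMap.ker (Polynomial.aeval L (X - 1 : F[X])) = ⊤ :=
      Submodule.eq_top_of_finrank_eq (by rw [h0, finrank_fin_fun])
    have h2 := hinj _ (LinearMap.ker_eq_top.1 h1)
    apply hT1
    simpa [sub_eq_zero] using h2

/-- Two commuting elements of order five generate a cyclic group. -/
theorem no_comm (hF : Fintype.card F = p) (hp5 : ((5 : ℕ) : F) ≠ 0) (hord : orderOf (p : ZMod 5) = 4) {w z : Mat F}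
    (hc : w * z = z * w) (hw : w ^ 5 = 1) (hz : z ^ 5 = 1) (hz1 : z ≠ 1) (hwz : ∀ j : ℕ, w * z ^ j ≠ 1) : False := by
  have hcm : Commute w z := hc
  have h1 : ∀ j : ℕ, ∑ k ∈ Finset.range 5, (w * z ^ j) ^ k = 0 := by
    intro j
    apply phi5 hF hp5 hord _ (hwz j)
    rw [(hcm.pow_right j).mul_pow, hw, one_mul, ← pow_mul, mul_comm, pow_mul, hz, one_pow]
  have hS : ∀ k ∈ Finset.range 5, k ≠ 0 → ∑ j ∈ Finset.range 5, (z ^ k) ^ j = 0 := by
    intro k hk hk0
    have hk5 : k < 5 := Finset.mem_range.1 hk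
    apply phi5 hF hp5 hord
    · rw [← pow_mul, mul_comm, pow_mul, hz, one_pow]
    · intro h3
      apply hz1
      have h4 : orderOf z ∣ Nat.gcd k 5 :=
        Nat.dvd_gcd (orderOf_dvd_of_pow_eq_one h3) (orderOf_dvd_of_pow_eq_one hz)
      have h5 : Nat.gcd k 5 = 1 := by
        interval_cases k <;> simp_all
      rw [h5] at h4
      exact orderOf_eq_one_iff.1 (Nat.dvd_one.1 h4)
  have h2 : ∑ j ∈ Finset.range 5, ∑ k ∈ Finset.range 5, (w * z ^ j) ^ k = 0 :=
    Finset.sum_eq_zero fun j _ => h1 j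
  rw [Finset.sum_comm] at h2
  have h3 : ∀ k, ∑ j ∈ Finset.range 5, (w * z ^ j) ^ k = w ^ k * ∑ j ∈ Finset.range 5, (z ^ k) ^ j := by
    intro k
    rw [Finset.mul_sum]
    refine Finset.sum_congr rfl fun j _ => ?_
    rw [(hcm.pow_right j).mul_pow, ← pow_mul, ← pow_mul, mul_comm]
  simp only [h3] at h2
  rw [Finset.sum_eq_single 0] at h2
  · simp only [pow_zero, one_mul, one_pow, Finset.sum_const, Finset.card_range] at h2
    have h4 := congrFun (congrFun h2 0) 0
    simp only [Matrix.smul_apply, Matrix.one_apply_eq, Matrix.zero_apply, nsmul_eq_mul, mul_one] at h4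
    exact hp5 h4
  · intro k hk hk0
    rw [hS k hk hk0, mul_zero]
  · intro h
    exact absurd (Finset.mem_range.2 (by norm_num)) h

/-- Elements of order five of `SL₄(p)` generate conjugate subgroups. -/
theorem conj_five (hF : Fintype.card F = p) (hp5 : ((5 : ℕ) : F) ≠ 0) (hord : orderOf (p : ZMod 5) = 4) (x y : GL (Fin 4) F)
    (hxS : x ∈ specialLinear (Fin 4) F) (hyS : y ∈ specialLinear (Fin 4) F) (hx5 : x ^ 5 = 1) (hy5 : y ^ 5 = 1) (hy1 : y ≠ 1) :
    ∃ g ∈ specialLinear (Fin 4) F, ∃ k : ℤ, g⁻¹ * x * g = y ^ k := by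
  haveI : Fact (Nat.Prime 5) := ⟨by norm_num⟩
  have H : ∀ w z : specialLinear (Fin 4) F, w * z = z * w → w ^ 5 = 1 → z ^ 5 = 1 → z ≠ 1 → w ∈ Subgroup.zpowers z := by
    intro w z hwz hw hz hz1
    by_contra hcon
    have tm : ∀ u v : specialLinear (Fin 4) F, u * v = v * u →
        (((u : GL (Fin 4) F)) : Mat F) * ((v : GL (Fin 4) F) : Mat F) = ((v : GL (Fin 4) F) : Mat F) * ((u : GL (Fin 4) F) : Mat F) := by
      intro u v h
      have := congrArg (fun a : specialLinear (Fin 4) F => (((a : GL (Fin 4) F)) : Mat F)) h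
      simpa only [Subgroup.coe_mul, Units.val_mul] using this
    have tp : ∀ (u : specialLinear (Fin 4) F) (j : ℕ), (((u ^ j : specialLinear (Fin 4) F) : GL (Fin 4) F) : Mat F) = ((u : GL (Fin 4) F) : Mat F) ^ j := by
      intro u j
      simp [Units.val_pow_eq_pow_val]
    apply no_comm hF hp5 hord (tm w z hwz)
    · rw [← tp, hw]
      rfl
    · rw [← tp, hz]
      rfl
    · intro h1
      apply hz1
      apply Subtype.ext
      apply Units.ext
      exact h1
    · intro j h1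
      apply hcon
      rw [← tp] at h1
      have h2 : w * z ^ j = 1 := by
        apply Subtype.ext
        apply Units.ext
        exact h1
      rw [Subgroup.mem_zpowers_iff]
      refine ⟨-(j : ℤ), ?_⟩
      rw [_root_.zpow_neg, zpow_natCast]
      exact (eq_inv_of_mul_eq_one_left h2).symm
  obtain ⟨h, k, hk⟩ := exists_conj_power H ⟨x, hxS⟩ ⟨y, hyS⟩ (Subtype.ext hx5) (Subtype.ext hy5)
    (fun h1 => hy1 (congrArg Subtype.val h1))
  refine ⟨(h⁻¹ : specialLinear (Fin 4) F).1, (h⁻¹ : specialLinear (Fin 4) F).2, k, ?_⟩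
  have := congrArg Subtype.val hk
  simpa using this

end Field

end Cfsg.Agent.Lib.Pauli4.Five
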