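import Mathlib
import Cfsg.Prelude.Def_GeometricClasses
import Cfsg.Agent.Lib.Geo.Basic
import Cfsg.Agent.Lib.ElusL.Flag
import Cfsg.Agent.Lib.ElusDec.Pos2
import Cfsg.Agent.Lib.Elusive.WeylHeis
import Cfsg.Agent.Lib.Pauli4.Forward
import Cfsg.Agent.S5967

/-!
# Conjugacy in `SL₄(F)` of semisimple elements of small order
-/

set_option autoImplicit false
set_option linter.unusedSimpArgs false

namespace Cfsg.Agent.Lib.Pauli4.Conj

open Cfsg Cfsg.Geo Matrix Module Polynomial
open Cfsg.Agent.Lib.Pauli4.Forward Cfsg.Agent.Lib.Pauli4.Setup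
open scoped MatrixGroups

variable {F : Type*} [Field F]

/-- Conjugacy from a common form whose centralizer has all determinants. -/
theorem exists_conj_of_form (x W Q₁ Q₂ : GL (Fin 4) F) (D : Mat F)
    (h₁ : (x : Mat F) * Q₁ = Q₁ * D) (h₂ : (W : Mat F) * Q₂ = Q₂ * D)
    (hZ : ∀ δ : F, δ ≠ 0 → ∃ Z : GL (Fin 4) F, (Z : Mat F) * D = D * Z ∧ (Z : Mat F).det = δ) :
    ∃ g ∈ specialLinear (Fin 4) F, g⁻¹ * x * g = W := by
  have hd1 : (Q₁ : Mat F).det ≠ 0 := ((Matrix.isUnit_iff_isUnit_det _).1 Q₁.isUnit).ne_zero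
  have hd2 : (Q₂ : Mat F).det ≠ 0 := ((Matrix.isUnit_iff_isUnit_det _).1 Q₂.isUnit).ne_zero
  obtain ⟨Z, hZD, hZdet⟩ := hZ ((Q₂ : Mat F).det / (Q₁ : Mat F).det) (div_ne_zero hd2 hd1)
  have hQ₂inv : ((Q₂⁻¹ : GL (Fin 4) F) : Mat F).det = ((Q₂ : Mat F).det)⁻¹ := by
    have h3 : ((Q₂⁻¹ : GL (Fin 4) F) : Mat F).det * (Q₂ : Mat F).det = 1 := by
      rw [← Matrix.det_mul, ← Units.val_mul, inv_mul_cancel, Units.val_one, Matrix.det_one]
    exact eq_inv_of_mul_eq_one_left h3
  refine ⟨Q₁ * Z * Q₂⁻¹, ?_, ?_⟩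
  · rw [Cfsg.Agent.Lib.Geo.Basic.mem_specialLinear_iff, Units.val_mul, Units.val_mul, Matrix.det_mul, Matrix.det_mul,
      hZdet, hQ₂inv]
    field_simp
  · have e1 : x * (Q₁ * Z) = (Q₁ * Z) * Q₂⁻¹ * (W * Q₂) := by
      have e2 : (Q₁ * Z) * Q₂⁻¹ * (W * Q₂) = Q₁ * Z * (Q₂⁻¹ * (W * Q₂)) := by group
      have e3 : Q₂⁻¹ * (W * Q₂) = Q₂⁻¹ * W * Q₂ := by group
      apply Units.ext
      rw [e2, e3]
      have hQ : (Q₂⁻¹ * W * Q₂ : GL (Fin 4) F).val = D := by
        rw [mul_assoc, Units.val_mul, Units.val_mul, h₂, ← mul_assoc, ← Units.val_mul, inv_mul_cancel, Units.val_one, one_mul]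
      rw [Units.val_mul, Units.val_mul, Units.val_mul, Units.val_mul, hQ]
      calc (x : Mat F) * ((Q₁ : Mat F) * Z) = ((x : Mat F) * Q₁) * Z := by rw [mul_assoc]
        _ = (Q₁ : Mat F) * (D * Z) := by rw [h₁, mul_assoc]
        _ = (Q₁ : Mat F) * (Z * D) := by rw [hZD]
        _ = _ := by rw [mul_assoc]
    have e4 : (Q₁ * Z * Q₂⁻¹)⁻¹ * x * (Q₁ * Z * Q₂⁻¹) = (Q₁ * Z * Q₂⁻¹)⁻¹ * (x * (Q₁ * Z)) * Q₂⁻¹ := by group
    rw [e4, e1]
    group

/-- A matrix from an independent family of columns. -/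
theorem exists_Q_of_cols (T D : Mat F) (c : Fin 4 → Fin 4 → F) (hc : LinearIndependent F c)
    (hD : ∀ k, T.mulVec (c k) = ∑ j, D j k • c j) : ∃ Q : GL (Fin 4) F, T * (Q : Mat F) = Q * D := by
  let Pm : Mat F := Matrix.of fun i k => c k i
  have hPcol : Pm.col = c := by
    funext k i
    rfl
  have hPu : IsUnit Pm := by
    rw [← Matrix.linearIndependent_cols_iff_isUnit, hPcol]
    exact hc
  refine ⟨hPu.unit, ?_⟩
  change T * Pm = Pm * D
  ext i k
  have h1 := congrFun (hD k) i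
  simp only [Matrix.mulVec, dotProduct, Finset.sum_apply, Pi.smul_apply, smul_eq_mul] at h1
  rw [Matrix.mul_apply, Matrix.mul_apply]
  simp only [Pm, Matrix.of_apply]
  rw [h1]
  exact Finset.sum_congr rfl fun j _ => mul_comm _ _

/-- The sign pattern. -/
noncomputable def dfun (w : F) (a c : ℕ) (hac : a + c = 4) : Fin 4 → F :=
  fun k => Sum.elim (fun _ => w) (fun _ => -w) ((finSumFinEquiv.trans (finCongr hac)).symm k)

/-- Eigenvectors of an element of `GL₄` whose square is a square scalar. -/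
theorem eigen_data (h2 : (2 : F) ≠ 0) (x : GL (Fin 4) F) (w : F) (hw : w ≠ 0)
    (hsq : (x : Mat F) * x = (w ^ 2) • 1) :
    ∃ (a c : ℕ) (hac : a + c = 4) (Q : GL (Fin 4) F), (x : Mat F) * Q = Q * diagonal (dfun w a c hac) ∧
      Matrix.trace (x : Mat F) = (a : F) * w - (c : F) * w := by
  let g : (Fin 4 → F) →ₗ[F] (Fin 4 → F) := Matrix.toLin' (x : Mat F)
  have hg : ∀ v, g (g v) = (w ^ 2) • v := by
    intro v
    simp only [g, Matrix.toLin'_apply, Matrix.mulVec_mulVec, hsq, Matrix.smul_mulVec, Matrix.one_mulVec]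
  obtain ⟨a, c, e, he1, he2⟩ := Cfsg.Agent.S5967.exists_eigen_basis g w hw h2 hg
  have hac : a + c = 4 := by
    have := finrank_eq_card_basis e
    simpa using this.symm
  let σ : Fin a ⊕ Fin c ≃ Fin 4 := finSumFinEquiv.trans (finCongr hac)
  let b := e.reindex σ
  have hb : ∀ k, (x : Mat F).mulVec (b k) = dfun w a c hac k • b k := by
    intro k
    have h1 : b k = e (σ.symm k) := by simp [b, Basis.reindex_apply]
    have h3 : dfun w a c hac k = Sum.elim (fun _ => w) (fun _ => -w) (σ.symm k) := rfl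
    rw [h1, h3]
    rcases σ.symm k with i | j
    · exact he1 i
    · exact he2 j
  obtain ⟨Q, hQ⟩ := Cfsg.Agent.Lib.Elusive.WeylHeis.exists_Q_of_basis (x : Mat F) b _ hb
  refine ⟨a, c, hac, Q, hQ, ?_⟩
  have hQi : ((Q⁻¹ : GL (Fin 4) F) : Mat F) * (Q : Mat F) = 1 := by
    rw [← Units.val_mul, inv_mul_cancel, Units.val_one]
  have h5 : Matrix.trace (x : Mat F) = Matrix.trace (diagonal (dfun w a c hac)) := by
    have h6 : diagonal (dfun w a c hac) = ((Q⁻¹ : GL (Fin 4) F) : Mat F) * (x : Mat F) * Q := by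
      rw [mul_assoc, hQ, ← mul_assoc, hQi, one_mul]
    rw [h6, Matrix.trace_mul_comm, ← mul_assoc]
    rw [show (Q : Mat F) * ((Q⁻¹ : GL (Fin 4) F) : Mat F) = 1 by
      rw [← Units.val_mul, mul_inv_cancel, Units.val_one], one_mul]
  rw [h5, Matrix.trace_diagonal]
  have h7 : ∑ k, dfun w a c hac k = ∑ s : Fin a ⊕ Fin c, Sum.elim (fun _ => w) (fun _ => -w) s := by
    exact Equiv.sum_comp σ.symm (Sum.elim (fun _ => w) (fun _ => -w))
  rw [h7, Fintype.sum_sum_type]
  simp
  ring

/-- Diagonal matrices are centralized by diagonal matrices of all determinants. -/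
theorem diag_hZ (d : Fin 4 → F) (δ : F) (hδ : δ ≠ 0) : ∃ Z : GL (Fin 4) F, (Z : Mat F) * diagonal d = diagonal d * Z ∧ (Z : Mat F).det = δ := by
  have hdet : (diagonal ![δ, 1, 1, 1] : Mat F).det = δ := by
    rw [Matrix.det_diagonal, Fin.prod_univ_four]
    simp
  refine ⟨Matrix.GeneralLinearGroup.mkOfDetNeZero (diagonal ![δ, 1, 1, 1]) (by rw [hdet]; exact hδ), ?_, hdet⟩
  change (diagonal ![δ, 1, 1, 1] : Mat F) * diagonal d = diagonal d * diagonal ![δ, 1, 1, 1]
  rw [Matrix.diagonal_mul_diagonal, Matrix.diagonal_mul_diagonal]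
  congr 1
  funext k
  ring

theorem same_index (h2 : (2 : F) ≠ 0) (h3 : (3 : F) ≠ 0) {a a' : ℕ} (ha : a ≤ 4) (ha' : a' ≤ 4) (h : (a : F) = a') : a = a' := by
  have hn : ∀ n : ℕ, 1 ≤ n → n ≤ 4 → (n : F) ≠ 0 := by
    intro n h1 h4
    interval_cases n
    · simp
    · exact_mod_cast h2
    · exact_mod_cast h3
    · have : ((4 : ℕ) : F) = 2 * 2 := by norm_num
      rw [this]
      exact mul_ne_zero h2 h2
  rcases lt_trichotomy a a' with hlt | heq | hgt
  · have := hn (a' - a) (by omega) (by omega)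
    rw [Nat.cast_sub hlt.le, ← h, sub_self] at this
    exact absurd rfl this
  · exact heq
  · have := hn (a - a') (by omega) (by omega)
    rw [Nat.cast_sub hgt.le, h, sub_self] at this
    exact absurd rfl this

/-- Elements with the same square scalar and the same trace are conjugate. -/
theorem conj_of_same (h2 : (2 : F) ≠ 0) (h3 : (3 : F) ≠ 0) (x W : GL (Fin 4) F) (w : F) (hw : w ≠ 0)
    (hx : (x : Mat F) * x = (w ^ 2) • 1) (hW : (W : Mat F) * W = (w ^ 2) • 1)
    (htr : Matrix.trace (x : Mat F) = Matrix.trace (W : Mat F)) :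
    ∃ g ∈ specialLinear (Fin 4) F, g⁻¹ * x * g = W := by
  obtain ⟨a, c, hac, Q, hQ, ht⟩ := eigen_data h2 x w hw hx
  obtain ⟨a', c', hac', Q', hQ', ht'⟩ := eigen_data h2 W w hw hW
  have haa : a = a' := by
    apply same_index h2 h3 (by omega) (by omega)
    have e1 : (c : F) = 4 - a := by
      have : ((a + c : ℕ) : F) = 4 := by rw [hac]; norm_num
      push_cast at this
      linear_combination this
    have e2 : (c' : F) = 4 - a' := by
      have : ((a' + c' : ℕ) : F) = 4 := by rw [hac']; norm_num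
      push_cast at this
      linear_combination this
    rw [ht, ht', e1, e2] at htr
    have h5 : 2 * w * ((a : F) - a') = 0 := by linear_combination htr
    have h6 := (mul_eq_zero.1 h5).resolve_left (mul_ne_zero h2 hw)
    exact sub_eq_zero.1 h6
  subst haa
  obtain rfl : c = c' := by omega
  exact exists_conj_of_form x W Q Q' _ hQ hQ' (fun δ hδ => diag_hZ _ δ hδ)

/-- The possible traces of a non-scalar element whose square is a square scalar. -/
theorem trace_cases (h2 : (2 : F) ≠ 0) (x : GL (Fin 4) F) (w : F) (hw : w ≠ 0)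
    (hx : (x : Mat F) * x = (w ^ 2) • 1) (hns : ∀ z : F, (x : Mat F) ≠ z • 1) :
    Matrix.trace (x : Mat F) = -2 * w ∨ Matrix.trace (x : Mat F) = 0 ∨ Matrix.trace (x : Mat F) = 2 * w := by
  obtain ⟨a, c, hac, Q, hQ, ht⟩ := eigen_data h2 x w hw hx
  have hscal : ∀ y : F, (∀ k, dfun w a c hac k = y) → False := by
    intro y hy
    have h1 : diagonal (dfun w a c hac) = y • (1 : Mat F) := by
      ext p q
      by_cases hpq : p = q
      · subst hpq
        simp [hy]
      · simp [hpq, Matrix.one_apply]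
    apply hns y
    have hQi : (Q : Mat F) * ((Q⁻¹ : GL (Fin 4) F) : Mat F) = 1 := by
      rw [← Units.val_mul, mul_inv_cancel, Units.val_one]
    rw [h1, mul_smul_comm, mul_one] at hQ
    calc (x : Mat F) = (x : Mat F) * (Q * ((Q⁻¹ : GL (Fin 4) F) : Mat F)) := by rw [hQi, mul_one]
      _ = ((x : Mat F) * Q) * ((Q⁻¹ : GL (Fin 4) F) : Mat F) := by rw [mul_assoc]
      _ = y • 1 := by rw [hQ, smul_mul_assoc, hQi]
  have ha4 : a ≤ 4 := by omega
  interval_cases a
  · exfalso
    apply hscal (-w)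
    intro k
    have : ∀ s : Fin 0 ⊕ Fin c, Sum.elim (fun _ => w) (fun _ => -w) s = -w := by
      rintro (i | j)
      · exact i.elim0
      · rfl
    exact this _
  · obtain rfl : c = 3 := by omega
    left
    rw [ht]
    push_cast
    ring
  · obtain rfl : c = 2 := by omega
    right; left
    rw [ht]
    push_cast
    ring
  · obtain rfl : c = 1 := by omega
    right; right
    rw [ht]
    push_cast
    ring
  · exfalso
    obtain rfl : c = 0 := by omega
    apply hscal w
    intro k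
    have : ∀ s : Fin 4 ⊕ Fin 0, Sum.elim (fun _ => w) (fun _ => -w) s = w := by
      rintro (i | j)
      · rfl
      · exact j.elim0
    exact this _

/-- The scalar of the square of an element of `SL₄` is a square when `-1` is. -/
theorem isSquare_of_sq (x : GL (Fin 4) F) (hx : x ∈ specialLinear (Fin 4) F) (z : F)
    (hz : (x : Mat F) * x = z • 1) (hsq1 : IsSquare (-1 : F)) : IsSquare z := by
  by_contra hns
  have hne : ∀ b : F, b ^ 2 ≠ z := by
    intro b hb
    exact hns ⟨b, by rw [← hb, pow_two]⟩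
  have hirr : Irreducible (X ^ 2 - C z : F[X]) := X_pow_sub_C_irreducible_of_prime Nat.prime_two hne
  let T : End F (Fin 4 → F) := Matrix.toLin' (x : Mat F)
  have h0 : Polynomial.aeval T (X ^ 2 - C z : F[X]) = 0 := by
    apply LinearMap.ext
    intro v
    simp only [map_sub, map_pow, aeval_X, aeval_C, LinearMap.sub_apply, Module.algebraMap_end_apply, LinearMap.zero_apply]
    rw [pow_two, Module.End.mul_apply]
    simp only [T, Matrix.toLin'_apply, Matrix.mulVec_mulVec, hz, Matrix.smul_mulVec, Matrix.one_mulVec]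
    simp
  have hdet := Cfsg.Agent.Lib.ElusL.Basic.det_eq hirr h0 (monic_X_pow_sub_C z (by norm_num))
  have hd1 : LinearMap.det T = 1 := by
    simp only [T]
    rw [LinearMap.det_toLin']
    exact (Cfsg.Agent.Lib.Geo.Basic.mem_specialLinear_iff x).1 hx
  rw [hd1, natDegree_X_pow_sub_C] at hdet
  have hc : (X ^ 2 - C z : F[X]).coeff 0 = -z := by simp
  rw [hc] at hdet
  have hf : finrank F (Fin 4 → F) = 4 := by simp
  rw [hf] at hdet
  norm_num at hdet
  have h5 : (z - 1) * (z + 1) = 0 := by linear_combination -hdet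
  rcases mul_eq_zero.1 h5 with h6 | h6
  · exact hns ⟨1, by rw [sub_eq_zero.1 h6, mul_one]⟩
  · have h7 : z = -1 := by linear_combination h6
    rw [h7] at hns
    exact hns hsq1

end Cfsg.Agent.Lib.Pauli4.Conj
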