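import Mathlib
import Cfsg.Agent.Lib.Pauli4.Conj

/-!
# Elements of order three in `GL₄(F)` when `F` has no primitive cube root of unity
-/

set_option autoImplicit false
set_option linter.unusedSimpArgs false

namespace Cfsg.Agent.Lib.Pauli4.Three

open Cfsg Cfsg.Geo Matrix Module Polynomial
open Cfsg.Agent.Lib.Pauli4.Forward Cfsg.Agent.Lib.Pauli4.Setup Cfsg.Agent.Lib.Pauli4.Conj
open scoped MatrixGroups

variable {F : Type*} [Field F]

/-- The form with two blocks of order three. -/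
def DA (F : Type*) [Field F] : Mat F := !![0, -1, 0, 0; 1, -1, 0, 0; 0, 0, 0, -1; 0, 0, 1, -1]

/-- The form with one block of order three. -/
def DB (F : Type*) [Field F] : Mat F := !![0, -1, 0, 0; 1, -1, 0, 0; 0, 0, 1, 0; 0, 0, 0, 1]

theorem det_blk (a b c d : F) : (!![a, b, 0, 0; c, d, 0, 0; 0, 0, 1, 0; 0, 0, 0, 1] : Mat F).det = a * d - b * c := by
  rw [Matrix.det_succ_row_zero]
  simp [Fin.sum_univ_succ, Matrix.det_fin_three, Fin.succAbove]
  ring

theorem trace_DA : Matrix.trace (DA F) = -2 := by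
  simp [DA, Matrix.trace, Fin.sum_univ_four]
  norm_num

theorem trace_DB : Matrix.trace (DB F) = 1 := by
  simp [DB, Matrix.trace, Fin.sum_univ_four]

theorem hZ_B (δ : F) (hδ : δ ≠ 0) : ∃ Z : GL (Fin 4) F, (Z : Mat F) * DB F = DB F * Z ∧ (Z : Mat F).det = δ := by
  have hdet : (diagonal ![1, 1, 1, δ] : Mat F).det = δ := by
    rw [Matrix.det_diagonal, Fin.prod_univ_four]
    simp
  refine ⟨Matrix.GeneralLinearGroup.mkOfDetNeZero (diagonal ![1, 1, 1, δ]) (by rw [hdet]; exact hδ), ?_, hdet⟩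
  change (diagonal ![1, 1, 1, δ] : Mat F) * DB F = DB F * diagonal ![1, 1, 1, δ]
  ext i j
  fin_cases i <;> fin_cases j <;> simp [DB, Matrix.mul_apply, Fin.sum_univ_four, Matrix.diagonal_apply]

theorem hZ_A [Fintype F] (hodd : Fintype.card F % 2 = 1) (h2 : (2 : F) ≠ 0) (h3 : (3 : F) ≠ 0) (δ : F) (hδ : δ ≠ 0) :
    ∃ Z : GL (Fin 4) F, (Z : Mat F) * DA F = DA F * Z ∧ (Z : Mat F).det = δ := by
  have hf : degree (X ^ 2 : F[X]) = 2 := degree_X_pow 2
  have hg : degree (C 3 * X ^ 2 + C 0 * X + C (-(4 * δ)) : F[X]) = 2 := degree_quadratic h3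
  obtain ⟨s, t, hst⟩ := FiniteField.exists_root_sum_quadratic hf hg hodd
  simp only [eval_pow, eval_X, eval_add, eval_mul, eval_C] at hst
  set a : F := (s + t) / 2 with ha
  have hs : s = 2 * a - t := by
    rw [ha]
    field_simp
    ring
  have hN : a * a - a * t + t * t = δ := by
    have h4 : (4 : F) ≠ 0 := by
      have : (4 : F) = 2 * 2 := by norm_num
      rw [this]
      exact mul_ne_zero h2 h2
    apply mul_left_cancel₀ h4
    rw [hs] at hst
    linear_combination hst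
  have hdet : (!![a, -t, 0, 0; t, a - t, 0, 0; 0, 0, 1, 0; 0, 0, 0, 1] : Mat F).det = δ := by
    rw [det_blk, ← hN]
    ring
  refine ⟨Matrix.GeneralLinearGroup.mkOfDetNeZero (!![a, -t, 0, 0; t, a - t, 0, 0; 0, 0, 1, 0; 0, 0, 0, 1]) (by rw [hdet]; exact hδ), ?_, hdet⟩
  change (!![a, -t, 0, 0; t, a - t, 0, 0; 0, 0, 1, 0; 0, 0, 0, 1] : Mat F) * DA F = DA F * !![a, -t, 0, 0; t, a - t, 0, 0; 0, 0, 1, 0; 0, 0, 0, 1]
  ext i j
  fin_cases i <;> fin_cases j <;> simp [DA, Matrix.mul_apply, Fin.sum_univ_four]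
  all_goals ring

/-- The polynomial of a primitive cube root of unity. -/
noncomputable def P3 (F : Type*) [Field F] : F[X] := X ^ 2 + X + 1

theorem P3_natDegree : (P3 F).natDegree = 2 := by
  rw [P3]
  compute_degree!

theorem P3_monic : (P3 F).Monic := by
  rw [P3]
  monicity!

theorem P3_irr (hno : ∀ a : F, a * a + a + 1 ≠ 0) : Irreducible (P3 F) := by
  rw [P3_monic.irreducible_iff_roots_eq_zero_of_degree_le_three (by rw [P3_natDegree]) (by rw [P3_natDegree]; norm_num)]
  rw [Multiset.eq_zero_iff_forall_notMem]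
  intro a ha
  have := (mem_roots'.1 ha).2
  simp only [IsRoot, P3, eval_add, eval_pow, eval_X, eval_one] at this
  exact hno a (by rw [← this]; ring)

variable {T : Mat F}

theorem aeval_P3 (v : Fin 4 → F) : Polynomial.aeval (Matrix.toLin' T) (P3 F) v = T.mulVec (T.mulVec v) + T.mulVec v + v := by
  simp only [P3, map_add, map_pow, aeval_X, map_one, LinearMap.add_apply, Module.End.one_apply]
  rw [pow_two, Module.End.mul_apply]
  simp only [Matrix.toLin'_apply]

theorem aeval_X1 (v : Fin 4 → F) : Polynomial.aeval (Matrix.toLin' T) (X - 1 : F[X]) v = T.mulVec v - v := by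
  simp only [map_sub, aeval_X, map_one, LinearMap.sub_apply, Module.End.one_apply, Matrix.toLin'_apply]

theorem mulVec_q {v : Fin 4 → F} : (T * T + T + 1).mulVec v = T.mulVec (T.mulVec v) + T.mulVec v + v := by
  rw [Matrix.add_mulVec, Matrix.add_mulVec, Matrix.one_mulVec, Matrix.mulVec_mulVec]

/-- The form for `T² + T + 1 = 0`. -/
theorem normal_A (hno : ∀ a : F, a * a + a + 1 ≠ 0) (hq : T * T + T + 1 = 0) :
    ∃ Q : GL (Fin 4) F, T * (Q : Mat F) = Q * DA F := by
  have hv : ∀ v : Fin 4 → F, T.mulVec (T.mulVec v) + T.mulVec v + v = 0 := by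
    intro v
    rw [← mulVec_q, hq, Matrix.zero_mulVec]
  have h0 : Polynomial.aeval (Matrix.toLin' T) (P3 F) = 0 := by
    apply LinearMap.ext
    intro v
    rw [aeval_P3, hv]
    rfl
  obtain ⟨u, c, b, hb⟩ := Cfsg.Agent.Lib.ElusDec.Pos2.exists_cyclic_basis (P3_irr hno) h0
  have hcard : (P3 F).natDegree * u = 4 := by
    have := finrank_eq_card_basis b
    simpa using this.symm
  rw [P3_natDegree] at hcard
  have hu : u = 2 := by omega
  have hd := P3_natDegree (F := F)
  let f : Fin 4 → Fin (P3 F).natDegree × Fin u := fun k =>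
    (⟨k.val % 2, by rw [hd]; omega⟩, ⟨k.val / 2, by have := k.isLt; omega⟩)
  have hinj : Function.Injective f := by
    intro x y hxy
    have h1 := congrArg (fun p => (p.1 : ℕ)) hxy
    have h2 := congrArg (fun p => (p.2 : ℕ)) hxy
    simp only [f] at h1 h2
    apply Fin.ext
    omega
  have hLI : LinearIndependent F (fun k => b (f k)) := b.linearIndependent.comp f hinj
  have e0 : b (f 0) = c ⟨0, by omega⟩ := by
    rw [hb]
    simp [f]
  have e1 : b (f 1) = T.mulVec (c ⟨0, by omega⟩) := by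
    rw [hb]
    simp [f]
  have e2 : b (f 2) = c ⟨1, by omega⟩ := by
    rw [hb]
    simp [f]
  have e3 : b (f 3) = T.mulVec (c ⟨1, by omega⟩) := by
    rw [hb]
    simp [f]
  apply exists_Q_of_cols T (DA F) _ hLI
  intro k
  have h5 := hv (c ⟨0, by omega⟩)
  have h6 := hv (c ⟨1, by omega⟩)
  have h5' : T.mulVec (T.mulVec (c ⟨0, by omega⟩)) = -(T.mulVec (c ⟨0, by omega⟩)) - c ⟨0, by omega⟩ := by
    rw [eq_sub_iff_add_eq, eq_neg_iff_add_eq_zero]
    rw [← h5]
    abel
  have h6' : T.mulVec (T.mulVec (c ⟨1, by omega⟩)) = -(T.mulVec (c ⟨1, by omega⟩)) - c ⟨1, by omega⟩ := by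
    rw [eq_sub_iff_add_eq, eq_neg_iff_add_eq_zero]
    rw [← h6]
    abel
  fin_cases k <;> simp only [Fin.sum_univ_four, e0, e1, e2, e3, Fin.isValue, Fin.zero_eta, Fin.mk_one, Fin.reduceFinMk] <;>
    simp [DA, h5', h6', e0, e1, e2, e3] <;> abel

/-- The form for `T³ = 1`, `T ≠ 1`, `T² + T + 1 ≠ 0`. -/
theorem normal_B (h3 : (3 : F) ≠ 0) (hno : ∀ a : F, a * a + a + 1 ≠ 0) (hT3 : T * T * T = 1) (hT1 : T ≠ 1)
    (hq : T * T + T + 1 ≠ 0) : ∃ Q : GL (Fin 4) F, T * (Q : Mat F) = Q * DB F := by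
  classical
  let L : End F (Fin 4 → F) := Matrix.toLin' T
  have hT : ∀ v : Fin 4 → F, T.mulVec (T.mulVec (T.mulVec v)) = v := by
    intro v
    rw [Matrix.mulVec_mulVec, Matrix.mulVec_mulVec, hT3, Matrix.one_mulVec]
  let W₀ : Submodule F (Fin 4 → F) := LinearMap.ker (Polynomial.aeval L (X - 1 : F[X]))
  let W₁ : Submodule F (Fin 4 → F) := LinearMap.ker (Polynomial.aeval L (P3 F))
  have mem₀ : ∀ v, v ∈ W₀ ↔ T.mulVec v = v := by
    intro v
    simp only [W₀, LinearMap.mem_ker, L]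
    rw [aeval_X1, sub_eq_zero]
  have mem₁ : ∀ v, v ∈ W₁ ↔ T.mulVec (T.mulVec v) + T.mulVec v + v = 0 := by
    intro v
    simp only [W₁, LinearMap.mem_ker, L]
    rw [aeval_P3]
  have hcop : IsCoprime (X - 1 : F[X]) (P3 F) := by
    refine ⟨-(C (3 : F)⁻¹ * (X + 2)), C (3 : F)⁻¹, ?_⟩
    have h1 : (C (3 : F)⁻¹ : F[X]) * 3 = 1 := by
      have : (3 : F[X]) = C (3 : F) := (map_ofNat C 3).symm
      rw [this, ← C_mul, inv_mul_cancel₀ h3, C_1]
    rw [P3]
    linear_combination h1
  have hprod : Polynomial.aeval L ((X - 1) * P3 F : F[X]) = 0 := by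
    apply LinearMap.ext
    intro v
    rw [map_mul, Module.End.mul_apply]
    simp only [L]
    rw [aeval_X1, aeval_P3]
    simp only [Matrix.mulVec_add, hT, LinearMap.zero_apply]
    abel
  have htop : Cfsg.Agent.Lib.ElusL.Basic.Inv L ⊤ := fun _ _ => trivial
  have hsplit := Cfsg.Agent.Lib.ElusL.Basic.finrank_split hcop hprod htop
  have hdvd : 2 ∣ finrank F (⊤ ⊓ W₁ : Submodule F (Fin 4 → F)) := by
    apply Cfsg.Agent.Lib.ElusL.Flag.dvd_finrank_inf (P3_irr hno).ne_zero _ htop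
    intro g hg hgd
    obtain ⟨q, hq'⟩ := hgd
    have hqu : IsUnit q := by
      rcases (P3_irr hno).isUnit_or_isUnit hq' with h | h
      · exact absurd h hg.not_isUnit
      · exact h
    have h1 := congrArg natDegree hq'
    rw [P3_natDegree, natDegree_mul hg.ne_zero hqu.ne_zero, natDegree_eq_zero_of_isUnit hqu, add_zero] at h1
    exact h1.symm
  rw [top_inf_eq] at hdvd
  rw [top_inf_eq, top_inf_eq, finrank_top, finrank_fin_fun] at hsplit
  change 4 = finrank F W₀ + finrank F W₁ at hsplit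
  -- a vector of `W₁`
  obtain ⟨v, hv1, hv0⟩ : ∃ v, v ∈ W₁ ∧ v ≠ 0 := by
    have : ∃ u : Fin 4 → F, T.mulVec u ≠ u := by
      by_contra hcon
      push Not at hcon
      apply hT1
      apply Matrix.toLin'.injective
      apply LinearMap.ext
      intro u
      simp [hcon]
    obtain ⟨u, hu⟩ := this
    refine ⟨T.mulVec u - u, ?_, sub_ne_zero.2 hu⟩
    rw [mem₁]
    simp only [Matrix.mulVec_sub, hT]
    abel
  have hn10 : finrank F W₁ ≠ 0 := by
    intro h
    have := Submodule.finrank_eq_zero.1 h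
    rw [this] at hv1
    exact hv0 ((Submodule.mem_bot F).1 hv1)
  have hn14 : finrank F W₁ ≠ 4 := by
    intro h
    have h1 : W₁ = ⊤ := Submodule.eq_top_of_finrank_eq (by rw [h, finrank_fin_fun])
    apply hq
    apply Matrix.toLin'.injective
    apply LinearMap.ext
    intro u
    have h2 : u ∈ W₁ := by rw [h1]; trivial
    rw [mem₁] at h2
    simp only [Matrix.toLin'_apply, mulVec_q, h2, map_zero, LinearMap.zero_apply]
  have hn1 : finrank F W₁ = 2 := by omega
  have hn0 : finrank F W₀ = 2 := by omega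
  let b₀ : Basis (Fin 2) F W₀ := Module.finBasisOfFinrankEq F W₀ hn0
  set f₀ : Fin 4 → F := ((b₀ 0 : W₀) : Fin 4 → F) with hf₀
  set f₁ : Fin 4 → F := ((b₀ 1 : W₀) : Fin 4 → F) with hf₁
  have hTf₀ : T.mulVec f₀ = f₀ := (mem₀ _).1 (b₀ 0).2
  have hTf₁ : T.mulVec f₁ = f₁ := (mem₀ _).1 (b₀ 1).2
  have hvq : T.mulVec (T.mulVec v) = -(T.mulVec v) - v := by
    have h5 := (mem₁ v).1 hv1
    rw [eq_sub_iff_add_eq, eq_neg_iff_add_eq_zero]
    rw [← h5]
    abel
  have hTv1 : T.mulVec v ∈ W₁ := by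
    rw [mem₁, hT, hvq]
    abel
  have hLI : LinearIndependent F ![v, T.mulVec v, f₀, f₁] := by
    rw [Fintype.linearIndependent_iff]
    intro g hg
    rw [Fin.sum_univ_four] at hg
    simp only [Matrix.cons_val_zero, Matrix.cons_val_one, Matrix.cons_val] at hg
    set u : Fin 4 → F := g 0 • v + g 1 • T.mulVec v with hu
    have hu1 : u ∈ W₁ := W₁.add_mem (W₁.smul_mem _ hv1) (W₁.smul_mem _ hTv1)
    have hw : g 2 • f₀ + g 3 • f₁ = -u := by
      rw [eq_neg_iff_add_eq_zero, ← hg]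
      rw [hu]
      abel
    have hu0 : T.mulVec u = u := by
      have h5 : T.mulVec (g 2 • f₀ + g 3 • f₁) = g 2 • f₀ + g 3 • f₁ := by
        rw [Matrix.mulVec_add, Matrix.mulVec_smul, Matrix.mulVec_smul, hTf₀, hTf₁]
      rw [hw, Matrix.mulVec_neg] at h5
      exact neg_injective h5
    have hu00 : u = 0 := by
      have h5 := (mem₁ u).1 hu1
      rw [hu0, hu0] at h5
      have h6 : (3 : F) • u = 0 := by
        rw [← h5]
        have : (3 : F) = 1 + 1 + 1 := by norm_num
        rw [this]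
        simp only [add_smul, one_smul]
      exact (smul_eq_zero.1 h6).resolve_left h3
    rw [hu00, neg_zero] at hw
    have hw' : g 2 • b₀ 0 + g 3 • b₀ 1 = 0 := by
      apply Subtype.ext
      exact hw
    have h23 := (Fintype.linearIndependent_iff.1 b₀.linearIndependent) ![g 2, g 3] (by
      rw [Fin.sum_univ_two]
      simpa using hw')
    have hg2 : g 2 = 0 := by simpa using h23 0
    have hg3 : g 3 = 0 := by simpa using h23 1
    have hg1 : g 1 = 0 := by
      by_contra hne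
      have hTv : T.mulVec v = (-(g 1)⁻¹ * g 0) • v := by
        have h5 : g 1 • T.mulVec v = -(g 0 • v) := by
          rw [eq_neg_iff_add_eq_zero, add_comm, ← hu, hu00]
        calc T.mulVec v = (g 1)⁻¹ • (g 1 • T.mulVec v) := by rw [smul_smul, inv_mul_cancel₀ hne, one_smul]
          _ = _ := by rw [h5, smul_neg, smul_smul, neg_mul, neg_smul]
      set l : F := -(g 1)⁻¹ * g 0 with hl
      have h7 := (mem₁ v).1 hv1
      rw [hTv, Matrix.mulVec_smul, hTv, smul_smul] at h7
      have h8 : (l * l + l + 1) • v = 0 := by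
        rw [add_smul, add_smul, one_smul]
        exact h7
      exact hno l ((smul_eq_zero.1 h8).resolve_right hv0)
    have hg0 : g 0 = 0 := by
      rw [hu, hg1, zero_smul, add_zero] at hu00
      exact (smul_eq_zero.1 hu00).resolve_right hv0
    intro k
    fin_cases k
    · exact hg0
    · exact hg1
    · exact hg2
    · exact hg3
  apply exists_Q_of_cols T (DB F) _ hLI
  intro k
  fin_cases k <;> simp [Fin.sum_univ_four, DB, hvq, hTf₀, hTf₁]
  abel

end Cfsg.Agent.Lib.Pauli4.Three
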