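import Mathlib
import Cfsg.Agent.Lib.ElusL.Arith
import Cfsg.Agent.Lib.Pauli4.Elements
import Cfsg.Agent.Lib.Pauli4.Three
import Cfsg.Agent.Lib.Pauli4.Five

/-!
# Elements of `SL₄(p)` conjugate into the normalizer of `R`
-/

set_option autoImplicit false
set_option linter.unusedSimpArgs false

namespace Cfsg.Agent.Lib.Pauli4.Back

open Cfsg Cfsg.Geo Matrix
open Cfsg.Agent.Lib.Pauli4.Forward Cfsg.Agent.Lib.Pauli4.Setup Cfsg.Agent.Lib.Pauli4.Conj
open Cfsg.Agent.Lib.Pauli4.Three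
open scoped MatrixGroups

variable {F : Type*} [Field F]

theorem trace_of_form {T D : Mat F} {Q : GL (Fin 4) F} (h : T * (Q : Mat F) = Q * D) : Matrix.trace T = Matrix.trace D := by
  have hQi : (Q : Mat F) * ((Q⁻¹ : GL (Fin 4) F) : Mat F) = 1 := by
    rw [← Units.val_mul, mul_inv_cancel, Units.val_one]
  have e : T = (Q : Mat F) * (D * ((Q⁻¹ : GL (Fin 4) F) : Mat F)) := by
    calc T = T * ((Q : Mat F) * ((Q⁻¹ : GL (Fin 4) F) : Mat F)) := by rw [hQi, mul_one]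
      _ = (T * (Q : Mat F)) * ((Q⁻¹ : GL (Fin 4) F) : Mat F) := by rw [mul_assoc]
      _ = _ := by rw [h, mul_assoc]
  have hQi' : ((Q⁻¹ : GL (Fin 4) F) : Mat F) * (Q : Mat F) = 1 := by
    rw [← Units.val_mul, inv_mul_cancel, Units.val_one]
  rw [e, Matrix.trace_mul_comm, mul_assoc, hQi', mul_one]

variable {R : Subgroup (GL (Fin 4) F)} {i : F} {ι t₁ t₂ t₃ t₄ : GL (Fin 4) F}

theorem scalar_ne_zero {x : GL (Fin 4) F} {z : F} (h : (x : Mat F) = z • 1) : z ≠ 0 := by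
  rintro rfl
  have h5 : IsUnit (x : Mat F) := x.isUnit
  rw [h, zero_smul] at h5
  exact not_isUnit_zero h5

theorem mem_scalars_of_eq {x : GL (Fin 4) F} {z : F} (h : (x : Mat F) = z • 1) : x ∈ scalars (Fin 4) F :=
  (mem_scalars_iff x).2 ⟨Units.mk0 z (scalar_ne_zero h), h⟩

theorem scal_mul_val (c : Fˣ) (x : GL (Fin 4) F) : ((scal F c * x : GL (Fin 4) F) : Mat F) = (c : F) • (x : Mat F) := by
  rw [Units.val_mul, scal_val, smul_mul_assoc, one_mul]

theorem scal_comm (c : Fˣ) (x : GL (Fin 4) F) : scal F c * x = x * scal F c :=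
  Cfsg.Agent.Lib.Asch.SC.comm_of_mem_scalars (scal_mem c)

/-- From a conjugacy of `scal c⁻¹ * x`. -/
theorem conj_scal {x y g : GL (Fin 4) F} {c : Fˣ} (hg : g⁻¹ * (scal F c⁻¹ * x) * g = y) : g⁻¹ * x * g = scal F c * y := by
  have hx : x = scal F c * (scal F c⁻¹ * x) := by
    rw [← mul_assoc, ← map_mul, mul_inv_cancel, map_one, one_mul]
  have hc : g⁻¹ * scal F c = scal F c * g⁻¹ := (scal_comm c g⁻¹).symm
  calc g⁻¹ * x * g = g⁻¹ * (scal F c * (scal F c⁻¹ * x)) * g := by rw [← hx]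
    _ = (g⁻¹ * scal F c) * ((scal F c⁻¹ * x) * g) := by simp only [mul_assoc]
    _ = (scal F c * g⁻¹) * ((scal F c⁻¹ * x) * g) := by rw [hc]
    _ = scal F c * (g⁻¹ * (scal F c⁻¹ * x) * g) := by simp only [mul_assoc]
    _ = _ := by rw [hg]

end Cfsg.Agent.Lib.Pauli4.Back

namespace Cfsg.Agent.Lib.Pauli4.Setup

open Cfsg Cfsg.Geo Matrix
open Cfsg.Agent.Lib.Pauli4.Forward Cfsg.Agent.Lib.Pauli4.Conj
open Cfsg.Agent.Lib.Pauli4.Three Cfsg.Agent.Lib.Pauli4.Back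
open scoped MatrixGroups

variable {F : Type*} [Field F]

variable {R : Subgroup (GL (Fin 4) F)} {i : F} {ι t₁ t₂ t₃ t₄ : GL (Fin 4) F}

namespace Cfg

variable (h : Cfg R i ι t₁ t₂ t₃ t₄)
include h

omit h in
theorem mem_N {u : GL (Fin 4) F} (hu : u ∈ R) : u ∈ subgroupNormalizer R :=
  Subgroup.le_normalizer hu

/-- Elements of order two. -/
theorem back_two (h3 : (3 : F) ≠ 0) {x : GL (Fin 4) F} (hx : x ∈ specialLinear (Fin 4) F)
    (hns : ∀ z : F, (x : Mat F) ≠ z • 1) (hxs : ∃ z : F, ((x ^ 2 : GL (Fin 4) F) : Mat F) = z • 1) :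
    ∃ g ∈ specialLinear (Fin 4) F, g⁻¹ * x * g ∈ subgroupNormalizer R := by
  have h2 := h.two
  obtain ⟨z, hz⟩ := hxs
  have hz0 := scalar_ne_zero hz
  rw [pow_two, Units.val_mul] at hz
  obtain ⟨w, hw⟩ := isSquare_of_sq x hx z hz ⟨i, h.ii.symm⟩
  have hw0 : w ≠ 0 := by
    rintro rfl
    apply hz0
    rw [hw, mul_zero]
  have hsq : (x : Mat F) * x = (w ^ 2) • 1 := by rw [hz, hw, pow_two]
  obtain ⟨w₀, hw₀N, hw₀s, hw₀t⟩ := h.exists_gate
  have key : ∀ (w' : Fˣ) (Y : GL (Fin 4) F), Y ∈ subgroupNormalizer R → (Y : Mat F) * Y = 1 → (w' : F) ^ 2 = w ^ 2 →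
      Matrix.trace (x : Mat F) = (w' : F) * Matrix.trace (Y : Mat F) →
      ∃ g ∈ specialLinear (Fin 4) F, g⁻¹ * x * g ∈ subgroupNormalizer R := by
    intro w' Y hY hYs hww htr
    have hsq' : ((scal F w' * Y : GL (Fin 4) F) : Mat F) * ((scal F w' * Y : GL (Fin 4) F) : Mat F) = (w ^ 2) • 1 := by
      rw [scal_mul_val, smul_mul_assoc, mul_smul_comm, hYs, smul_smul, ← pow_two, hww]
    obtain ⟨g, hg, hgc⟩ := conj_of_same h2 h3 x (scal F w' * Y) w hw0 hsq hsq' (by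
      rw [htr, scal_mul_val, Matrix.trace_smul, smul_eq_mul])
    refine ⟨g, hg, ?_⟩
    rw [hgc]
    exact Subgroup.mul_mem _ (mem_normalizer_of_scalars (scal_mem w')) hY
  rcases trace_cases h2 x w hw0 hsq hns with ht | ht | ht
  · apply key (-Units.mk0 w hw0) w₀ hw₀N hw₀s (by simp) 
    rw [ht, hw₀t]
    simp
    ring
  · apply key (Units.mk0 w hw0) t₂ (mem_N h.t₂R) h.s₂ (by simp)
    rw [ht, h.trace_t₂, mul_zero]
  · apply key (Units.mk0 w hw0) w₀ hw₀N hw₀s (by simp)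
    rw [ht, hw₀t]
    simp
    ring

omit h in
/-- No primitive cube roots of unity. -/
theorem no_omega [Fintype F] {p : ℕ} (hF : Fintype.card F = p) (hp3 : p % 3 = 2) (h3 : (3 : F) ≠ 0) (a : F) :
    a * a + a + 1 ≠ 0 := by
  classical
  intro ha
  have ha0 : a ≠ 0 := by
    rintro rfl
    simp at ha
  have ha1 : a ≠ 1 := by
    rintro rfl
    apply h3
    rw [← ha]
    norm_num
  have ha3 : a ^ 3 = 1 := by linear_combination (a - 1) * ha
  let u : Fˣ := Units.mk0 a ha0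
  haveI : Fact (Nat.Prime 3) := ⟨Nat.prime_three⟩
  have hu : orderOf u = 3 := orderOf_eq_prime (Units.ext (by simpa [u] using ha3)) (fun h5 => ha1 (by
    have := congrArg Units.val h5
    simpa [u] using this))
  have h5 : 3 ∣ Nat.card Fˣ := by
    rw [← hu]
    exact orderOf_dvd_natCard u
  rw [Nat.card_eq_fintype_card, Fintype.card_units, hF] at h5
  omega

/-- Elements of order three. -/
theorem back_three [Fintype F] {p : ℕ} (hF : Fintype.card F = p) (hp4 : p % 4 = 1) (hp3 : p % 3 = 2) (h3 : (3 : F) ≠ 0)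
    {x : GL (Fin 4) F} (hns : ∀ z : F, (x : Mat F) ≠ z • 1)
    (hxs : ∃ z : F, ((x ^ 3 : GL (Fin 4) F) : Mat F) = z • 1) :
    ∃ g ∈ specialLinear (Fin 4) F, g⁻¹ * x * g ∈ subgroupNormalizer R := by
  have h2 := h.two
  have hno := no_omega hF hp3 h3
  obtain ⟨z, hz⟩ := hxs
  have hz0 := scalar_ne_zero hz
  obtain ⟨b, hb⟩ := Cfsg.Agent.Lib.ElusL.Arith.exists_root_of_coprime hF Nat.prime_three (by omega) hz0
  have hb0 : b ≠ 0 := by
    rintro rfl
    apply hz0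
    rw [← hb]
    norm_num
  let c : Fˣ := Units.mk0 b hb0
  have hcv : (c : F) = b := rfl
  set T : GL (Fin 4) F := scal F c⁻¹ * x with hT
  have hT3 : T ^ 3 = 1 := by
    have hcm : Commute (scal F c⁻¹) x := scal_comm _ _
    rw [hT, hcm.mul_pow]
    apply Units.ext
    rw [← map_pow, scal_mul_val, hz, Units.val_one, smul_smul, Units.val_pow_eq_pow_val, Units.val_inv_eq_inv_val, hcv, inv_pow, hb,
      inv_mul_cancel₀ hz0, one_smul]
  have hT3' : (T : Mat F) * T * T = 1 := by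
    have := congrArg Units.val hT3
    rw [Units.val_pow_eq_pow_val, Units.val_one] at this
    rw [← this]
    simp only [pow_succ, pow_zero, one_mul]
  have hT1 : (T : Mat F) ≠ 1 := by
    intro h5
    apply hns b
    have h6 : (x : Mat F) = (c : F) • (T : Mat F) := by
      rw [hT, scal_mul_val, smul_smul, Units.val_inv_eq_inv_val, mul_inv_cancel₀ c.ne_zero, one_smul]
    rw [h6, h5, hcv]
  obtain ⟨y₁, y₂, hy₁N, hy₂N, hy₁3, -, hy₂q, hy₂t, hy₁t⟩ := h.exists_three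
  have hodd : Fintype.card F % 2 = 1 := by
    rw [hF]
    omega
  have fin_ : ∀ {y : GL (Fin 4) F}, y ∈ subgroupNormalizer R → (∃ g ∈ specialLinear (Fin 4) F, g⁻¹ * T * g = y) →
      ∃ g ∈ specialLinear (Fin 4) F, g⁻¹ * x * g ∈ subgroupNormalizer R := by
    rintro y hy ⟨g, hg, hgc⟩
    refine ⟨g, hg, ?_⟩
    rw [conj_scal hgc]
    exact Subgroup.mul_mem _ (mem_normalizer_of_scalars (scal_mem c)) hy
  by_cases hq : (T : Mat F) * T + T + 1 = 0
  · obtain ⟨Q₁, hQ₁⟩ := normal_A hno hq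
    obtain ⟨Q₂, hQ₂⟩ := normal_A hno hy₂q
    exact fin_ hy₂N (exists_conj_of_form T y₂ Q₁ Q₂ (DA F) hQ₁ hQ₂ (fun δ hδ => hZ_A hodd h2 h3 δ hδ))
  · obtain ⟨Q₁, hQ₁⟩ := normal_B h3 hno hT3' hT1 hq
    have hy₁3' : (y₁ : Mat F) * y₁ * y₁ = 1 := by
      have := congrArg Units.val hy₁3
      rw [Units.val_pow_eq_pow_val, Units.val_one] at this
      rw [← this]
      simp only [pow_succ, pow_zero, one_mul]
    have hy₁1 : (y₁ : Mat F) ≠ 1 := by
      intro h5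
      rw [h5, Matrix.trace_one, Fintype.card_fin] at hy₁t
      apply h3
      push_cast at hy₁t
      linear_combination hy₁t
    have hy₁q : (y₁ : Mat F) * y₁ + y₁ + 1 ≠ 0 := by
      intro h5
      obtain ⟨Q, hQ⟩ := normal_A hno h5
      have h6 := trace_of_form hQ
      rw [trace_DA, hy₁t] at h6
      apply h3
      linear_combination h6
    obtain ⟨Q₂, hQ₂⟩ := normal_B h3 hno hy₁3' hy₁1 hy₁q
    exact fin_ hy₁N (exists_conj_of_form T y₁ Q₁ Q₂ (DB F) hQ₁ hQ₂ hZ_B)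

omit h in
/-- Fifth roots of one are trivial. -/
theorem eq_one_of_pow5 [Fintype F] {p : ℕ} (hF : Fintype.card F = p) (h5p : ¬ 5 ∣ p - 1) {δ : F} (hδ : δ ^ 5 = 1) : δ = 1 := by
  classical
  have hδ0 : δ ≠ 0 := by
    rintro rfl
    norm_num at hδ
  let u : Fˣ := Units.mk0 δ hδ0
  have hu5 : u ^ 5 = 1 := Units.ext (by simpa [u] using hδ)
  have h1 : orderOf u ∣ 5 := orderOf_dvd_of_pow_eq_one hu5
  have h2 : orderOf u ∣ Nat.card Fˣ := orderOf_dvd_natCard u
  rw [Nat.card_eq_fintype_card, Fintype.card_units, hF] at h2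
  rcases (Nat.dvd_prime (by norm_num : Nat.Prime 5)).1 h1 with h3 | h3
  · have := orderOf_eq_one_iff.1 h3
    exact congrArg Units.val this
  · rw [h3] at h2
    exact absurd h2 h5p

/-- Elements of order five. -/
theorem back_five [Fintype F] {p : ℕ} (hF : Fintype.card F = p) (hp5 : ((5 : ℕ) : F) ≠ 0)
    (hord : orderOf (p : ZMod 5) = 4) (hpp : 1 ≤ p) {x : GL (Fin 4) F} (hx : x ∈ specialLinear (Fin 4) F)
    (hxs : ∃ z : F, ((x ^ 5 : GL (Fin 4) F) : Mat F) = z • 1) :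
    ∃ g ∈ specialLinear (Fin 4) F, g⁻¹ * x * g ∈ subgroupNormalizer R := by
  classical
  have h5p : ¬ 5 ∣ p - 1 := by
    intro hd
    have h1 : (p : ZMod 5) = 1 := by
      have h2 : ((p - 1 : ℕ) : ZMod 5) = 0 := (ZMod.natCast_eq_zero_iff _ _).2 hd
      rw [Nat.cast_sub hpp, sub_eq_zero] at h2
      simpa using h2
    rw [h1, orderOf_one] at hord
    omega
  have hroot : ∀ κ : Fˣ, ∃ c : Fˣ, c ^ 5 = κ := by
    intro κ
    have h1 : Nat.Coprime (Nat.card Fˣ) 5 := by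
      rw [Nat.card_eq_fintype_card, Fintype.card_units, hF]
      exact ((Nat.Prime.coprime_iff_not_dvd (by norm_num)).mpr h5p).symm
    exact (powCoprime h1).surjective κ
  obtain ⟨y, hyN, hy5, hy1⟩ := h.exists_five hroot
  have hdetS : ∀ u : GL (Fin 4) F, u ^ 5 = 1 → u ∈ specialLinear (Fin 4) F := by
    intro u hu
    rw [Cfsg.Agent.Lib.Geo.Basic.mem_specialLinear_iff]
    apply eq_one_of_pow5 hF h5p
    rw [← Matrix.det_pow, ← Units.val_pow_eq_pow_val, hu, Units.val_one, Matrix.det_one]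
  obtain ⟨z, hz⟩ := hxs
  have hz0 := scalar_ne_zero hz
  obtain ⟨c, hc⟩ := hroot (Units.mk0 z hz0)
  have hcz : (c : F) ^ 5 = z := by
    have := congrArg Units.val hc
    simpa using this
  set T : GL (Fin 4) F := scal F c⁻¹ * x with hT
  have hT5 : T ^ 5 = 1 := by
    have hcm : Commute (scal F c⁻¹) x := scal_comm _ _
    rw [hT, hcm.mul_pow]
    apply Units.ext
    rw [← map_pow, scal_mul_val, hz, Units.val_one, smul_smul, Units.val_pow_eq_pow_val, Units.val_inv_eq_inv_val, inv_pow, hcz,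
      inv_mul_cancel₀ hz0, one_smul]
  obtain ⟨g, hg, k, hgc⟩ := Cfsg.Agent.Lib.Pauli4.Five.conj_five hF hp5 hord T y (hdetS T hT5) (hdetS y hy5) hT5 hy5 hy1
  refine ⟨g, hg, ?_⟩
  rw [conj_scal hgc]
  exact Subgroup.mul_mem _ (mem_normalizer_of_scalars (scal_mem c)) (Subgroup.zpow_mem _ hyN k)

end Cfg

end Cfsg.Agent.Lib.Pauli4.Setup
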