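import Mathlib
import Cfsg.Agent.Lib.Pauli4.Back

/-!
# Elements of `SL₄(p)` not conjugate into the normalizer of `R`
-/

set_option autoImplicit false
set_option linter.unusedSimpArgs false

namespace Cfsg.Agent.Lib.Pauli4.Setup

open Cfsg Cfsg.Geo Matrix
open Cfsg.Agent.Lib.Pauli4.Forward Cfsg.Agent.Lib.Pauli4.Conj
open Cfsg.Agent.Lib.Pauli4.Three Cfsg.Agent.Lib.Pauli4.Back
open scoped MatrixGroups

variable {F : Type*} [Field F]

variable {R : Subgroup (GL (Fin 4) F)} {i : F} {ι t₁ t₂ t₃ t₄ : GL (Fin 4) F}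

theorem not_mem_scalars {x : GL (Fin 4) F} (hns : ∀ z : F, (x : Mat F) ≠ z • 1) : x ∉ scalars (Fin 4) F := by
  intro h
  obtain ⟨c, hc⟩ := (mem_scalars_iff x).1 h
  exact hns _ hc

/-- The determinant in terms of scalars. -/
theorem det_of_scalar {x : GL (Fin 4) F} {z : F} (h : (x : Mat F) = z • 1) : (x : Mat F).det = z ^ 4 := by
  rw [h, Matrix.det_smul, Matrix.det_one, mul_one, Fintype.card_fin]

namespace Cfg

variable (h : Cfg R i ι t₁ t₂ t₃ t₄)
include h

/-- Large primes. -/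
theorem fwd_large [Finite F] {r : ℕ} [Fact r.Prime] (hr7 : 7 ≤ r)
    (hΩ : r ∣ (subgroupNormalizer R).relIndex (specialLinear (Fin 4) F))
    (hall : ∀ x ∈ specialLinear (Fin 4) F, (∃ z : F, ((x ^ r : GL (Fin 4) F) : Mat F) = z • (1 : Mat F)) →
      (∀ z : F, (x : Mat F) ≠ z • (1 : Mat F)) → ∃ g ∈ specialLinear (Fin 4) F, g⁻¹ * x * g ∈ subgroupNormalizer R) : False := by
  have hdvd : r ∣ Nat.card (specialLinear (Fin 4) F) := hΩ.trans (Subgroup.relIndex_dvd_card _ _)
  obtain ⟨x, hx⟩ := exists_prime_orderOf_dvd_card' r hdvd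
  have hXr : (x : GL (Fin 4) F) ^ r = 1 := by
    have := congrArg Subtype.val (pow_orderOf_eq_one x)
    rw [hx] at this
    simpa using this
  have hns : ∀ z : F, ((x : GL (Fin 4) F) : Mat F) ≠ z • 1 := by
    intro z hz
    have h1 := det_of_scalar hz
    rw [(Cfsg.Agent.Lib.Geo.Basic.mem_specialLinear_iff _).1 x.2] at h1
    have h4 : (x : GL (Fin 4) F) ^ 4 = 1 := by
      apply Units.ext
      rw [Units.val_pow_eq_pow_val, hz, smul_pow, one_pow, ← h1, one_smul, Units.val_one]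
    have h5 : x ^ 4 = 1 := Subtype.ext (by simpa using h4)
    have h6 := orderOf_dvd_of_pow_eq_one h5
    rw [hx] at h6
    have := Nat.le_of_dvd (by norm_num) h6
    omega
  obtain ⟨g, -, hgN⟩ := hall x x.2 ⟨1, by rw [hXr, Units.val_one, one_smul]⟩ hns
  have hZ : g⁻¹ * (x : GL (Fin 4) F) * g ∉ scalars (Fin 4) F := by
    intro h1
    apply not_mem_scalars hns
    have h5 := conj_scalar g h1
    have h6 : g * (g⁻¹ * (x : GL (Fin 4) F) * g) * g⁻¹ = (x : GL (Fin 4) F) := by group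
    rw [h6] at h5
    rw [h5]
    exact h1
  have hXr' : (g⁻¹ * (x : GL (Fin 4) F) * g) ^ r ∈ scalars (Fin 4) F := by
    have e : (g⁻¹ * (x : GL (Fin 4) F) * g) ^ r = g⁻¹ * (x : GL (Fin 4) F) ^ r * g := by
      have := conj_pow (a := g⁻¹) (b := (x : GL (Fin 4) F)) (i := r)
      simpa using this
    rw [e, hXr]
    simp [Subgroup.one_mem]
  exact h.no_large hgN hZ hr7 hXr'

/-- Elements of order three when `F` has a primitive cube root of unity. -/
theorem fwd_three {ω : F} (hω : ω * ω + ω + 1 = 0) (h3 : (3 : F) ≠ 0)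
    (hall : ∀ x ∈ specialLinear (Fin 4) F, (∃ z : F, ((x ^ 3 : GL (Fin 4) F) : Mat F) = z • (1 : Mat F)) →
      (∀ z : F, (x : Mat F) ≠ z • (1 : Mat F)) → ∃ g ∈ specialLinear (Fin 4) F, g⁻¹ * x * g ∈ subgroupNormalizer R) : False := by
  have h2 := h.two
  have hω3 : ω * ω * ω = 1 := by linear_combination (ω - 1) * hω
  have hA : (diagonal ![ω, ω, ω, 1] : Mat F) * diagonal ![ω * ω, ω * ω, ω * ω, 1] = 1 := by
    rw [Matrix.diagonal_mul_diagonal, ← Matrix.diagonal_one]
    congr 1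
    funext k
    fin_cases k <;> simp
    all_goals linear_combination hω3
  have hB : (diagonal ![ω * ω, ω * ω, ω * ω, 1] : Mat F) * diagonal ![ω, ω, ω, 1] = 1 := by
    rw [Matrix.diagonal_mul_diagonal, ← Matrix.diagonal_one]
    congr 1
    funext k
    fin_cases k <;> simp
    all_goals linear_combination hω3
  let X : GL (Fin 4) F := ⟨diagonal ![ω, ω, ω, 1], diagonal ![ω * ω, ω * ω, ω * ω, 1], hA, hB⟩
  have hXv : (X : Mat F) = diagonal ![ω, ω, ω, 1] := rfl
  have hXi : ((X⁻¹ : GL (Fin 4) F) : Mat F) = diagonal ![ω * ω, ω * ω, ω * ω, 1] := rfl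
  have hX3 : X ^ 3 = 1 := by
    apply Units.ext
    rw [Units.val_pow_eq_pow_val, hXv, Matrix.diagonal_pow, Units.val_one, ← Matrix.diagonal_one]
    congr 1
    funext k
    fin_cases k <;> simp
    all_goals linear_combination hω3
  have hdet : (X : Mat F).det = 1 := by
    rw [hXv, Matrix.det_diagonal, Fin.prod_univ_four]
    simp
    exact hω3
  have hns : ∀ z : F, (X : Mat F) ≠ z • 1 := by
    intro z hz
    have h1 := congrFun (congrFun hz 0) 0
    have h4 := congrFun (congrFun hz 3) 3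
    rw [hXv] at h1 h4
    simp at h1 h4
    apply h3
    rw [h1, ← h4] at hω
    rw [← hω]
    norm_num
  obtain ⟨g, -, hgN⟩ := hall X ((Cfsg.Agent.Lib.Geo.Basic.mem_specialLinear_iff X).2 hdet)
    ⟨1, by rw [hX3, Units.val_one, one_smul]⟩ hns
  have ht := h.trace_three hgN (not_mem_scalars hns) (by rw [hX3]; exact Subgroup.one_mem _)
  rw [hXi, hXv] at ht
  simp only [Matrix.trace_diagonal, Fin.sum_univ_four] at ht
  simp only [Matrix.cons_val] at ht
  have hE : (ω + ω + ω + 1) * (ω * ω + ω * ω + ω * ω + 1) = 7 := by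
    linear_combination 9 * hω3 + 3 * hω
  rcases ht with ht | ht
  · have h5 : (2 : F) * 2 * 2 * 3 = 0 := by
      linear_combination ht - 4 * hE
    exact mul_ne_zero (mul_ne_zero (mul_ne_zero h2 h2) h2) h3 h5
  · have h5 : (2 : F) * 2 * 3 = 0 := by
      linear_combination ht - 4 * hE
    exact mul_ne_zero (mul_ne_zero h2 h2) h3 h5

/-- Elements of order five with an eigenvalue pair in a quadratic extension. -/
theorem fwd_five_s {s : F} (hs : s * s + s - 1 = 0) (h5 : (5 : F) ≠ 0)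
    (hall : ∀ x ∈ specialLinear (Fin 4) F, (∃ z : F, ((x ^ 5 : GL (Fin 4) F) : Mat F) = z • (1 : Mat F)) →
      (∀ z : F, (x : Mat F) ≠ z • (1 : Mat F)) → ∃ g ∈ specialLinear (Fin 4) F, g⁻¹ * x * g ∈ subgroupNormalizer R) : False := by
  set A : Mat F := !![0, -1, 0, 0; 1, s, 0, 0; 0, 0, 1, 0; 0, 0, 0, 1] with hAd
  set B : Mat F := !![s, 1, 0, 0; -1, 0, 0, 0; 0, 0, 1, 0; 0, 0, 0, 1] with hBd
  have hAB : A * B = 1 := by
    ext p q
    fin_cases p <;> fin_cases q <;> simp [hAd, hBd, Matrix.mul_apply, Fin.sum_univ_four]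
  have hBA : B * A = 1 := by
    ext p q
    fin_cases p <;> fin_cases q <;> simp [hAd, hBd, Matrix.mul_apply, Fin.sum_univ_four]
  let X : GL (Fin 4) F := ⟨A, B, hAB, hBA⟩
  have hXv : (X : Mat F) = A := rfl
  have hXi : ((X⁻¹ : GL (Fin 4) F) : Mat F) = B := rfl
  have hAA : A * A = !![-1, -s, 0, 0; s, -s, 0, 0; 0, 0, 1, 0; 0, 0, 0, 1] := by
    ext p q
    fin_cases p <;> fin_cases q <;> simp [hAd, Matrix.mul_apply, Fin.sum_univ_four]
    linear_combination hs
  have hA4 : (!![-1, -s, 0, 0; s, -s, 0, 0; 0, 0, 1, 0; 0, 0, 0, 1] : Mat F) * !![-1, -s, 0, 0; s, -s, 0, 0; 0, 0, 1, 0; 0, 0, 0, 1] = B := by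
    ext p q
    fin_cases p <;> fin_cases q <;> simp [hBd, Matrix.mul_apply, Fin.sum_univ_four]
    · linear_combination -hs
    · linear_combination hs
    · linear_combination -hs
  have hX5 : X ^ 5 = 1 := by
    apply Units.ext
    rw [Units.val_pow_eq_pow_val, hXv, Units.val_one]
    have : A ^ 5 = A * ((A * A) * (A * A)) := by
      simp only [pow_succ, pow_zero, one_mul, mul_assoc]
    rw [this, hAA, hA4, hAB]
  have hdet : (X : Mat F).det = 1 := by
    rw [hXv, hAd, det_blk]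
    ring
  have hns : ∀ z : F, (X : Mat F) ≠ z • 1 := by
    intro z hz
    have h1 := congrFun (congrFun hz 0) 0
    have h4 := congrFun (congrFun hz 3) 3
    rw [hXv, hAd] at h1 h4
    simp at h1 h4
    rw [← h1] at h4
    exact one_ne_zero h4
  obtain ⟨g, -, hgN⟩ := hall X ((Cfsg.Agent.Lib.Geo.Basic.mem_specialLinear_iff X).2 hdet)
    ⟨1, by rw [hX5, Units.val_one, one_smul]⟩ hns
  have ht := h.trace_five hgN (not_mem_scalars hns) (by rw [hX5]; exact Subgroup.one_mem _)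
  rw [hXi, hXv, hAd, hBd] at ht
  simp [Matrix.trace, Fin.sum_univ_four] at ht
  apply h5
  linear_combination (-8 - 3 * s) * hs + (3 * s - 1) * ht

/-- Transvections in characteristic five. -/
theorem fwd_five_t (h5 : (5 : F) = 0)
    (hall : ∀ x ∈ specialLinear (Fin 4) F, (∃ z : F, ((x ^ 5 : GL (Fin 4) F) : Mat F) = z • (1 : Mat F)) →
      (∀ z : F, (x : Mat F) ≠ z • (1 : Mat F)) → ∃ g ∈ specialLinear (Fin 4) F, g⁻¹ * x * g ∈ subgroupNormalizer R) : False := by
  set N : Mat F := single 0 1 1 with hN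
  have hNN : N * N = 0 := by
    ext p q
    fin_cases p <;> fin_cases q <;> simp [hN, Matrix.mul_apply, Fin.sum_univ_four, Matrix.single_apply]
  have hAB : (1 + N) * (1 - N) = 1 := by
    rw [add_mul, one_mul, mul_sub, mul_one, hNN]
    abel
  have hBA : (1 - N) * (1 + N) = 1 := by
    rw [sub_mul, one_mul, mul_add, mul_one, hNN]
    abel
  let X : GL (Fin 4) F := ⟨1 + N, 1 - N, hAB, hBA⟩
  have hXv : (X : Mat F) = 1 + N := rfl
  have hk : ∀ k : ℕ, (1 + N) ^ k = 1 + (k : F) • N := by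
    intro k
    induction k with
    | zero => simp
    | succ k ih =>
      rw [pow_succ, ih, add_mul, one_mul, smul_mul_assoc, mul_add, mul_one, hNN, add_zero, Nat.cast_succ, add_smul, one_smul]
      abel
  have hX5 : X ^ 5 = 1 := by
    apply Units.ext
    rw [Units.val_pow_eq_pow_val, hXv, Units.val_one, hk]
    have : ((5 : ℕ) : F) = 0 := by exact_mod_cast h5
    rw [this, zero_smul, add_zero]
  have hdet : (X : Mat F).det = 1 := by
    rw [hXv]
    exact Matrix.det_transvection_of_ne 0 1 (by decide) 1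
  have hns : ∀ z : F, (X : Mat F) ≠ z • 1 := by
    intro z hz
    have h1 := congrFun (congrFun hz 0) 1
    rw [hXv, hN] at h1
    simp at h1
  obtain ⟨g, -, hgN⟩ := hall X ((Cfsg.Agent.Lib.Geo.Basic.mem_specialLinear_iff X).2 hdet)
    ⟨1, by rw [hX5, Units.val_one, one_smul]⟩ hns
  exact h.no_transvection hXv hgN

end Cfg

/-- Primitive cube roots of unity. -/
theorem exists_omega' [Fintype F] {p : ℕ} (hF : Fintype.card F = p) (hp3 : p % 3 = 1) (hp : 1 ≤ p) :
    ∃ ω : F, ω * ω + ω + 1 = 0 := by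
  classical
  haveI : Fact (Nat.Prime 3) := ⟨Nat.prime_three⟩
  have hcard : 3 ∣ Nat.card Fˣ := by
    rw [Nat.card_eq_fintype_card, Fintype.card_units, hF]
    omega
  obtain ⟨u, hu⟩ := exists_prime_orderOf_dvd_card' (G := Fˣ) 3 hcard
  have hu3 : (u : F) ^ 3 = 1 := by
    have := pow_orderOf_eq_one u
    rw [hu] at this
    have h3 := congrArg Units.val this
    simpa using h3
  have hu1 : (u : F) ≠ 1 := by
    intro h1
    have : u = 1 := Units.ext h1
    rw [this, orderOf_one] at hu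
    omega
  refine ⟨(u : F), ?_⟩
  have h5 : ((u : F) - 1) * ((u : F) * u + u + 1) = 0 := by linear_combination hu3
  exact (mul_eq_zero.1 h5).resolve_left (sub_ne_zero.2 hu1)

/-- Square roots of five. -/
theorem exists_s {p : ℕ} [Fact p.Prime] [CharP F p] (hp4 : p % 4 = 1) (hp5 : (p : ZMod 5) = 1 ∨ (p : ZMod 5) = 4) (h2 : (2 : F) ≠ 0) :
    ∃ s : F, s * s + s - 1 = 0 := by
  haveI : Fact (Nat.Prime 5) := ⟨by norm_num⟩
  have h1 : IsSquare (p : ZMod 5) := by
    rcases hp5 with h | h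
    · rw [h]
      exact ⟨1, (one_mul 1).symm⟩
    · rw [h]
      exact ⟨2, by norm_num⟩
  obtain ⟨t, ht⟩ := (ZMod.exists_sq_eq_prime_iff_of_mod_four_eq_one (p := p) (q := 5) hp4 (by norm_num)).2 h1
  let φ : ZMod p →+* F := ZMod.castHom (dvd_refl p) F
  have ht' : φ t * φ t = 5 := by
    rw [← map_mul, ← ht, map_natCast]
    norm_num
  refine ⟨(φ t - 1) / 2, ?_⟩
  field_simp
  linear_combination ht'

/-- The order of `p` modulo five. -/
theorem order_cases (a : ZMod 5) (h0 : a ≠ 0) (h1 : a ≠ 1) (h4 : a ≠ 4) : orderOf a = 4 := by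
  have key : ∀ a : ZMod 5, a ≠ 0 → a ≠ 1 → a ≠ 4 → ¬ a ^ 2 = 1 ∧ a ^ 4 = 1 := by decide
  obtain ⟨h5, h6⟩ := key a h0 h1 h4
  exact orderOf_eq_prime_pow (p := 2) (n := 1) (by simpa using h5) (by simpa using h6)

end Cfsg.Agent.Lib.Pauli4.Setup
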